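import Mathlib
import Cfsg.Agent.S0143
import Cfsg.Agent.Lib.Helper54.Stability
import Cfsg.Agent.Lib.Helper90.SylowCount

/-!
# Wielandt's theorem on products of nilpotent groups of coprime orders: basics

Nilpotent-subgroup toolkit (`sylG`), the configuration `Cfg`, factorized subgroups `Fac`,
and the minimal counterexample `MinCex` with its first consequences.
-/

set_option autoImplicit false
set_option linter.style.haveILetI false

namespace Cfsg.Agent.Lib.Helper57.Wie

open scoped Pointwise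

section basics

variable {G : Type*} [Group G]

/-- membership in the normalizer from one-sided conjugation in a finite group -/
theorem mem_normalizer_of_conj_mem [Finite G] (H : Subgroup G) (g : G)
    (hg : ∀ a ∈ H, g * a * g⁻¹ ∈ H) : g ∈ Subgroup.normalizer (H : Set G) := by
  have key : ∀ k : ℕ, ∀ a ∈ H, g ^ k * a * (g ^ k)⁻¹ ∈ H := by
    intro k
    induction k with
    | zero => intro a ha; simpa using ha
    | succ k ih =>
      intro a ha
      have h1 := hg _ (ih a ha)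
      have e : g ^ (k + 1) * a * (g ^ (k + 1))⁻¹ = g * (g ^ k * a * (g ^ k)⁻¹) * g⁻¹ := by
        rw [pow_succ']; group
      rw [e]; exact h1
  have hinv : g⁻¹ = g ^ (orderOf g - 1) := by
    have hpos : 0 < orderOf g := orderOf_pos g
    apply inv_eq_of_mul_eq_one_right
    rw [← pow_succ', Nat.sub_add_cancel hpos, pow_orderOf_eq_one]
  rw [Subgroup.mem_normalizer_iff]
  intro a
  refine ⟨hg a, fun h => ?_⟩
  have h2 := key (orderOf g - 1) _ h
  rw [← hinv] at h2
  simpa [mul_assoc] using h2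

theorem le_normalizer_of_conj_mem [Finite G] (K H : Subgroup G)
    (h : ∀ k ∈ K, ∀ a ∈ H, k * a * k⁻¹ ∈ H) : K ≤ Subgroup.normalizer (H : Set G) :=
  fun k hk => mem_normalizer_of_conj_mem H k (h k hk)

theorem conj_mem_of_mem_normalizer {H : Subgroup G} {g a : G}
    (hg : g ∈ Subgroup.normalizer (H : Set G)) (ha : a ∈ H) : g * a * g⁻¹ ∈ H :=
  (Subgroup.mem_normalizer_iff.1 hg a).1 ha

theorem conj_mem_of_mem_normalizer' {H : Subgroup G} {g a : G}
    (hg : g ∈ Subgroup.normalizer (H : Set G)) (ha : a ∈ H) : g⁻¹ * a * g ∈ H :=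
  (Subgroup.mem_normalizer_iff''.1 hg a).1 ha

theorem nil_of_le {M C : Subgroup G} (hnil : Group.IsNilpotent M) (h : C ≤ M) :
    Group.IsNilpotent C := by
  have h1 : Group.IsNilpotent (C.subgroupOf M) := inferInstance
  exact Group.nilpotent_of_mulEquiv (Subgroup.subgroupOfEquivOfLe h)

theorem le_sylow_of_nilpotent {K : Type*} [Group K] [Finite K] [Group.IsNilpotent K] {p : ℕ}
    [Fact p.Prime] (P : Sylow p K) {V : Subgroup K} (hV : IsPGroup p V) : V ≤ P := by
  have hnil : Group.IsNilpotent K := inferInstance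
  have hn0 : ∀ (q : ℕ), Fact (Nat.Prime q) → ∀ (Q : Sylow q K), (Q : Subgroup K).Normal :=
    ((Group.isNilpotent_of_finite_tfae (G := K)).out 0 3).1 hnil
  have hn : ∀ Q : Sylow p K, (Q : Subgroup K).Normal := fun Q => hn0 p inferInstance Q
  obtain ⟨Q, hQ⟩ := hV.exists_le_sylow
  haveI := hn P
  have hQP : Q = P := by
    obtain ⟨g, hg⟩ := MulAction.exists_smul_eq K P Q
    rw [← hg, Sylow.smul_eq_of_normal]
  rw [← hQP]; exact hQ

/-- a Sylow `r`-subgroup of a subgroup, inside the ambient group -/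
noncomputable def sylG (A : Subgroup G) (r : ℕ) : Subgroup G :=
  ((Classical.arbitrary (Sylow r A) : Sylow r A) : Subgroup A).map A.subtype

theorem sylG_le (A : Subgroup G) (r : ℕ) : sylG A r ≤ A := by
  intro x hx
  obtain ⟨y, _, rfl⟩ := Subgroup.mem_map.1 hx
  exact y.2

theorem sylG_isPGroup (A : Subgroup G) (r : ℕ) : IsPGroup r (sylG A r) :=
  (Classical.arbitrary (Sylow r A)).isPGroup'.map A.subtype

theorem le_sylG [Finite G] {A : Subgroup G} (hA : Group.IsNilpotent A) {r : ℕ} (hr : r.Prime)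
    {V : Subgroup G} (hVA : V ≤ A) (hV : IsPGroup r V) : V ≤ sylG A r := by
  haveI := Fact.mk hr
  have h1 : IsPGroup r (V.subgroupOf A) := hV.comap_subtype
  have h2 := le_sylow_of_nilpotent (Classical.arbitrary (Sylow r A)) h1
  intro x hx
  exact Subgroup.mem_map.2 ⟨⟨x, hVA hx⟩, h2 (Subgroup.mem_subgroupOf.2 hx), rfl⟩

theorem le_normalizer_sylG [Finite G] {A : Subgroup G} (hA : Group.IsNilpotent A) {r : ℕ}
    (hr : r.Prime) : A ≤ Subgroup.normalizer (sylG A r : Set G) := by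
  haveI := Fact.mk hr
  have hn0 : ∀ (q : ℕ), Fact (Nat.Prime q) → ∀ (Q : Sylow q A), (Q : Subgroup A).Normal :=
    ((Group.isNilpotent_of_finite_tfae (G := A)).out 0 3).1 hA
  have hn : ((Classical.arbitrary (Sylow r A) : Sylow r A) : Subgroup A).Normal :=
    hn0 r inferInstance _
  apply le_normalizer_of_conj_mem
  intro a ha x hx
  obtain ⟨y, hy, rfl⟩ := Subgroup.mem_map.1 hx
  exact Subgroup.mem_map.2 ⟨⟨a, ha⟩ * y * ⟨a, ha⟩⁻¹, hn.conj_mem y hy ⟨a, ha⟩, by simp⟩

theorem orderOf_of_mem_pgroup {r : ℕ} (hr : r.Prime) {V : Subgroup G} (hV : IsPGroup r V) {x : G}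
    (hx : x ∈ V) : ∃ k, orderOf x = r ^ k := by
  haveI := Fact.mk hr
  obtain ⟨k, hk⟩ := (IsPGroup.iff_orderOf.1 hV) ⟨x, hx⟩
  exact ⟨k, by rw [← hk, Subgroup.orderOf_mk]⟩

theorem mem_sylG_of_orderOf [Finite G] {A : Subgroup G} (hA : Group.IsNilpotent A) {r : ℕ}
    (hr : r.Prime) {g : G} (hg : g ∈ A) {k : ℕ} (hk : orderOf g = r ^ k) : g ∈ sylG A r := by
  have h1 : IsPGroup r (Subgroup.zpowers g) :=
    IsPGroup.of_card (n := k) (by rw [Nat.card_zpowers, hk])
  exact le_sylG hA hr (Subgroup.zpowers_le.2 hg) h1 (Subgroup.mem_zpowers g)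

theorem commute_of_coprime {A : Subgroup G} (hA : Group.IsNilpotent A) {x y : G} (hx : x ∈ A)
    (hy : y ∈ A) (hc : (orderOf x).Coprime (orderOf y)) : Commute x y := by
  haveI := hA
  have h1 := Cfsg.Agent.Lib.Helper54.commute_of_coprime_of_nilpotent A ⟨x, hx⟩ ⟨y, hy⟩
    (by simpa [Subgroup.orderOf_mk] using hc)
  exact congrArg Subtype.val h1.eq

theorem commute_sylG {A : Subgroup G} (hA : Group.IsNilpotent A) {r q : ℕ} (hr : r.Prime)
    (hq : q.Prime) (hne : r ≠ q) {x y : G} (hx : x ∈ sylG A r) (hy : y ∈ sylG A q) :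
    Commute x y := by
  obtain ⟨i, hi⟩ := orderOf_of_mem_pgroup hr (sylG_isPGroup A r) hx
  obtain ⟨j, hj⟩ := orderOf_of_mem_pgroup hq (sylG_isPGroup A q) hy
  apply commute_of_coprime hA (sylG_le A r hx) (sylG_le A q hy)
  rw [hi, hj]
  exact Nat.Coprime.pow _ _ ((Nat.coprime_primes hr hq).2 hne)

/-- a subgroup containing a Sylow subgroup of `A` for every prime contains `A` -/
theorem le_of_sylG_le [Finite G] {A : Subgroup G} (S : Subgroup G)
    (h : ∀ r : ℕ, r.Prime → sylG A r ≤ S) : A ≤ S := by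
  have h1 : S.subgroupOf A = ⊤ := by
    rw [← Subgroup.index_eq_one]
    by_contra hne
    obtain ⟨q, hq, hqd⟩ := Nat.exists_prime_and_dvd hne
    haveI : Fact q.Prime := ⟨hq⟩
    have hle : ((Classical.arbitrary (Sylow q A) : Sylow q A) : Subgroup A) ≤ S.subgroupOf A := by
      intro x hx
      exact Subgroup.mem_subgroupOf.2 (h q hq (Subgroup.mem_map.2 ⟨x, hx, rfl⟩))
    have h2 := Subgroup.index_dvd_of_le hle
    exact (Classical.arbitrary (Sylow q A)).not_dvd_index (hqd.trans h2)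
  intro a ha
  have h3 : (⟨a, ha⟩ : A) ∈ S.subgroupOf A := by rw [h1]; trivial
  exact Subgroup.mem_subgroupOf.1 h3

theorem sylG_ne_bot [Finite G] {A : Subgroup G} {r : ℕ} (hr : r.Prime) (hdvd : r ∣ Nat.card A) :
    sylG A r ≠ ⊥ := by
  haveI := Fact.mk hr
  intro h
  have h1 := (Classical.arbitrary (Sylow r A)).ne_bot_of_dvd_card hdvd
  exact h1 ((Subgroup.map_eq_bot_iff_of_injective _ A.subtype_injective).1 h)

theorem central_of_sylG [Finite G] {A : Subgroup G} (hA : Group.IsNilpotent A) {r : ℕ}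
    (hr : r.Prime) {z : G} (hz : z ∈ sylG A r) (hc : ∀ x ∈ sylG A r, Commute x z) :
    ∀ a ∈ A, Commute a z := by
  have h1 : A ≤ Subgroup.centralizer ({z} : Set G) := by
    apply le_of_sylG_le
    intro q hq x hx
    rw [Subgroup.mem_centralizer_iff]
    intro y hy
    rw [Set.mem_singleton_iff] at hy; subst hy
    by_cases hqr : q = r
    · subst hqr; exact (hc x hx).eq.symm
    · exact (commute_sylG hA hq hr hqr hx hz).eq.symm
  intro a ha
  exact (Subgroup.mem_centralizer_iff.1 (h1 ha) z rfl).symm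

theorem exists_central_sylG [Finite G] {A : Subgroup G} (hA : Group.IsNilpotent A) {r : ℕ}
    (hr : r.Prime) (hdvd : r ∣ Nat.card A) :
    ∃ z ∈ sylG A r, z ≠ 1 ∧ ∀ a ∈ A, Commute a z := by
  haveI := Fact.mk hr
  have hne : sylG A r ≠ ⊥ := sylG_ne_bot hr hdvd
  haveI : Nontrivial (sylG A r) := (Subgroup.nontrivial_iff_ne_bot _).2 hne
  haveI := (sylG_isPGroup A r).center_nontrivial
  obtain ⟨z, hz⟩ := exists_ne (1 : Subgroup.center (sylG A r))
  refine ⟨z.1.1, z.1.2, ?_, ?_⟩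
  · intro h; apply hz; ext; exact h
  · apply central_of_sylG hA hr z.1.2
    intro x hx
    have h1 := Subgroup.mem_center_iff.1 z.2 ⟨x, hx⟩
    exact congrArg Subtype.val h1

theorem card_of_coe_eq_mul [Finite G] {D P Q : Subgroup G}
    (hD : (D : Set G) = (P : Set G) * (Q : Set G)) (hc : (Nat.card P).Coprime (Nat.card Q)) :
    Nat.card D = Nat.card P * Nat.card Q := by
  have hP : P ≤ D := by
    intro x hx
    have h1 : x ∈ (D : Set G) := by rw [hD]; exact ⟨x, hx, 1, Q.one_mem, mul_one x⟩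
    exact h1
  have hQ : Q ≤ D := by
    intro x hx
    have h1 : x ∈ (D : Set G) := by rw [hD]; exact ⟨1, P.one_mem, x, hx, one_mul x⟩
    exact h1
  have h1 : Nat.card P * Nat.card Q ∣ Nat.card D :=
    hc.mul_dvd_of_dvd_of_dvd (Subgroup.card_dvd_of_le hP) (Subgroup.card_dvd_of_le hQ)
  have h2 : Nat.card D ≤ Nat.card P * Nat.card Q := by
    have h3 := Set.natCard_mul_le (s := (P : Set G)) (t := (Q : Set G))
    rw [← hD] at h3
    exact h3
  exact le_antisymm h2 (Nat.le_of_dvd Nat.card_pos h1)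

/-- the configuration of Wielandt's theorem -/
structure Cfg (A B : Subgroup G) : Prop where
  nilA : Group.IsNilpotent A
  nilB : Group.IsNilpotent B
  cop : (Nat.card A).Coprime (Nat.card B)
  fact : ∀ g : G, ∃ a ∈ A, ∃ b ∈ B, g = a * b

/-- `S` is factorized -/
def Fac (A B S : Subgroup G) : Prop := ∀ s ∈ S, ∃ a ∈ A ⊓ S, ∃ b ∈ B ⊓ S, s = a * b

theorem Fac.symm {A B S : Subgroup G} (h : Fac A B S) : Fac B A S := by
  intro s hs
  obtain ⟨a, ha, b, hb, e⟩ := h s⁻¹ (S.inv_mem hs)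
  exact ⟨b⁻¹, inv_mem hb, a⁻¹, inv_mem ha, by rw [← mul_inv_rev, ← e, inv_inv]⟩

variable {A B : Subgroup G}

theorem Cfg.symm (h : Cfg A B) : Cfg B A :=
  ⟨h.nilB, h.nilA, h.cop.symm, fun g => by
    obtain ⟨a, ha, b, hb, e⟩ := h.fact g⁻¹
    exact ⟨b⁻¹, inv_mem hb, a⁻¹, inv_mem ha, by rw [← mul_inv_rev, ← e, inv_inv]⟩⟩

theorem Cfg.eq_one_of_mem (h : Cfg A B) {x : G} (hA : x ∈ A) (hB : x ∈ B) : x = 1 := by
  have h1 : x ∈ A ⊓ B := ⟨hA, hB⟩
  rw [(Subgroup.disjoint_of_coprime_natCard h.cop).eq_bot] at h1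
  exact Subgroup.mem_bot.1 h1

theorem Cfg.fac_of_le (h : Cfg A B) {S : Subgroup G} (hAS : A ≤ S) : Fac A B S := by
  intro s hs
  obtain ⟨a, ha, b, hb, e⟩ := h.fact s
  refine ⟨a, ⟨ha, hAS ha⟩, b, ⟨hb, ?_⟩, e⟩
  have h1 : b = a⁻¹ * s := by rw [e]; group
  rw [h1]; exact S.mul_mem (S.inv_mem (hAS ha)) hs

theorem Cfg.card_eq [Finite G] (h : Cfg A B) : Nat.card G = Nat.card A * Nat.card B := by
  have h1 : ((⊤ : Subgroup G) : Set G) = (A : Set G) * (B : Set G) := by
    ext g
    simp only [Subgroup.coe_top, Set.mem_univ, true_iff]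
    obtain ⟨a, ha, b, hb, e⟩ := h.fact g
    exact ⟨a, ha, b, hb, e.symm⟩
  have h2 := card_of_coe_eq_mul h1 h.cop
  rwa [Subgroup.card_top] at h2

theorem Cfg.cop_inf (h : Cfg A B) (S T : Subgroup G) :
    (Nat.card (A ⊓ S : Subgroup G)).Coprime (Nat.card (B ⊓ T : Subgroup G)) :=
  Nat.Coprime.coprime_dvd_left (Subgroup.card_dvd_of_le inf_le_left)
    (Nat.Coprime.coprime_dvd_right (Subgroup.card_dvd_of_le inf_le_left) h.cop)

theorem Cfg.card_fac [Finite G] (h : Cfg A B) {S : Subgroup G} (hS : Fac A B S) :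
    Nat.card S = Nat.card (A ⊓ S : Subgroup G) * Nat.card (B ⊓ S : Subgroup G) := by
  apply card_of_coe_eq_mul
  · ext g
    constructor
    · intro hg
      obtain ⟨a, ha, b, hb, e⟩ := hS g hg
      exact ⟨a, ha, b, hb, e.symm⟩
    · rintro ⟨a, ha, b, hb, rfl⟩
      exact S.mul_mem ha.2 hb.2
  · exact h.cop_inf S S

/-- an element of the normalizer of `A` of order prime to `|B|` lies in `A` -/
theorem Cfg.mem_of_mem_normalizer [Finite G] (h : Cfg A B) {m : G}
    (hm : m ∈ Subgroup.normalizer (A : Set G)) (hco : (orderOf m).Coprime (Nat.card B)) :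
    m ∈ A := by
  have hle : Subgroup.zpowers m ≤ Subgroup.normalizer (A : Set G) := Subgroup.zpowers_le.2 hm
  have h1 := Cfsg.Agent.Lib.Helper90.card_sup_mul_card_inf_of_le_normalizer hle
  rw [Nat.card_zpowers] at h1
  have h2 : Nat.card (Subgroup.zpowers m ⊔ A : Subgroup G) ∣ Nat.card A * Nat.card B := by
    rw [← h.card_eq]; exact Subgroup.card_subgroup_dvd_card _
  have h3 : Nat.card (Subgroup.zpowers m ⊓ A : Subgroup G) ∣ orderOf m := by
    rw [← Nat.card_zpowers]; exact Subgroup.card_dvd_of_le inf_le_left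
  obtain ⟨t, ht⟩ := h3
  have hi : 0 < Nat.card (Subgroup.zpowers m ⊓ A : Subgroup G) := Nat.card_pos
  have ha : 0 < Nat.card A := Nat.card_pos
  have h4 : Nat.card (Subgroup.zpowers m ⊔ A : Subgroup G) = Nat.card A * t := by
    have h5 : Nat.card (Subgroup.zpowers m ⊔ A : Subgroup G) *
        Nat.card (Subgroup.zpowers m ⊓ A : Subgroup G) =
        (Nat.card A * t) * Nat.card (Subgroup.zpowers m ⊓ A : Subgroup G) := by
      rw [h1, ht]; ring
    exact Nat.eq_of_mul_eq_mul_right hi h5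
  rw [h4] at h2
  have h6 : t ∣ Nat.card B := (Nat.mul_dvd_mul_iff_left ha).1 h2
  have h7 : t ∣ orderOf m := ⟨_, by rw [ht]; ring⟩
  have h8 : t = 1 := Nat.eq_one_of_dvd_coprimes hco h7 h6
  rw [h8, mul_one] at ht
  have h9 : Subgroup.zpowers m ⊓ A = Subgroup.zpowers m :=
    Subgroup.eq_of_le_of_card_ge inf_le_left (by rw [Nat.card_zpowers, ht])
  have h10 : m ∈ Subgroup.zpowers m ⊓ A := by rw [h9]; exact Subgroup.mem_zpowers m
  exact h10.2

/-- the minimal counterexample -/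
structure MinCex (A B : Subgroup G) : Prop where
  cfg : Cfg A B
  simple : IsSimpleGroup G
  nonsolv : ¬ Group.IsSolvable G
  ih : ∀ S : Subgroup G, S ≠ ⊤ → Fac A B S → Group.IsSolvable S

theorem MinCex.symm (h : MinCex A B) : MinCex B A :=
  ⟨h.cfg.symm, h.simple, h.nonsolv, fun S hS hf => h.ih S hS hf.symm⟩

theorem MinCex.eq_bot_or_top_of_normalizer (h : MinCex A B) {V : Subgroup G}
    (hV : Subgroup.normalizer (V : Set G) = ⊤) : V = ⊥ ∨ V = ⊤ := by
  haveI := h.simple
  exact (Subgroup.normalizer_eq_top_iff.1 hV).eq_bot_or_eq_top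

theorem MinCex.center_trivial (h : MinCex A B) {g : G} (hg : ∀ x : G, Commute x g) : g = 1 := by
  haveI := h.simple
  have hc : (Subgroup.center G).Normal := inferInstance
  rcases hc.eq_bot_or_eq_top with h1 | h1
  · have h2 : g ∈ Subgroup.center G := Subgroup.mem_center_iff.2 (fun x => (hg x).eq)
    rw [h1] at h2; exact Subgroup.mem_bot.1 h2
  · exfalso; apply h.nonsolv
    apply Group.isSolvable_of_comm
    intro a b
    have h2 : b ∈ Subgroup.center G := by rw [h1]; trivial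
    exact Subgroup.mem_center_iff.1 h2 a

theorem MinCex.A_ne_top (h : MinCex A B) : A ≠ ⊤ := by
  intro hA
  apply h.nonsolv
  haveI : Group.IsNilpotent A := h.cfg.nilA
  have e : A ≃* G := (MulEquiv.subgroupCongr hA).trans Subgroup.topEquiv
  haveI : Group.IsNilpotent G := Group.nilpotent_of_mulEquiv e
  infer_instance

theorem MinCex.B_ne_bot (h : MinCex A B) : B ≠ ⊥ := by
  intro hB
  apply h.A_ne_top
  rw [eq_top_iff]; intro g _
  obtain ⟨a, ha, b, hb, e⟩ := h.cfg.fact g
  rw [hB, Subgroup.mem_bot] at hb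
  rw [e, hb, mul_one]; exact ha

theorem MinCex.A_ne_bot (h : MinCex A B) : A ≠ ⊥ := h.symm.B_ne_bot

theorem MinCex.B_ne_top (h : MinCex A B) : B ≠ ⊤ := h.symm.A_ne_top

/-- Burnside: `A` is not of prime power order -/
theorem MinCex.not_prime_pow [Finite G] (h : MinCex A B) {p k : ℕ} (hp : p.Prime)
    (hA : Nat.card A = p ^ k) : False := by
  haveI := h.simple
  have hB1 : Nat.card B ≠ 1 := fun hc => h.B_ne_bot (Subgroup.card_eq_one.1 hc)
  obtain ⟨q, hq, hqd⟩ := Nat.exists_prime_and_dvd hB1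
  obtain ⟨z, _, hz1, hzc⟩ := exists_central_sylG h.cfg.nilB hq hqd
  have hle : B ≤ Subgroup.centralizer ({z} : Set G) := by
    intro b hb
    rw [Subgroup.mem_centralizer_iff]
    intro y hy
    rw [Set.mem_singleton_iff] at hy; subst hy
    exact (hzc b hb).eq.symm
  have hidx : B.index = Nat.card A := by
    have h1 := Subgroup.card_mul_index B
    rw [h.cfg.card_eq] at h1
    have hpos : 0 < Nat.card B := Nat.card_pos
    exact Nat.eq_of_mul_eq_mul_left hpos (by rw [h1, mul_comm])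
  have hdvd : (Subgroup.centralizer ({z} : Set G)).index ∣ p ^ k := by
    rw [← hA, ← hidx]; exact Subgroup.index_dvd_of_le hle
  obtain ⟨j, _, hj⟩ := (Nat.dvd_prime_pow hp).1 hdvd
  have hprime := Cfsg.Agent.S0143.result p j hp z hz1 hj
  apply h.nonsolv
  haveI := Fact.mk hprime
  haveI := isCyclic_of_prime_card (α := G) rfl
  exact Group.isSolvable_of_comm (fun a b => Std.Commutative.comm a b)

theorem MinCex.exists_prime_ne [Finite G] (h : MinCex A B) (p : ℕ) :
    ∃ r, r.Prime ∧ r ≠ p ∧ r ∣ Nat.card A := by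
  by_contra hcon
  push Not at hcon
  have hall : ∀ {d : ℕ}, d.Prime → d ∣ Nat.card A → d = p := by
    intro d hd hdv; by_contra hne; exact hcon d hd hne hdv
  by_cases hp : p.Prime
  · exact h.not_prime_pow hp (Nat.eq_prime_pow_of_unique_prime_dvd Nat.card_pos.ne' hall)
  · have h1 : Nat.card A = 1 := by
      by_contra hne
      obtain ⟨q, hq, hqd⟩ := Nat.exists_prime_and_dvd hne
      exact hp (hall hq hqd ▸ hq)
    exact h.not_prime_pow (k := 0) Nat.prime_two (by rw [h1, pow_zero])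

/-- a subgroup normalized by `A` and by a nontrivial `B`-invariant subgroup is normal -/
theorem MinCex.normalizer_eq_top (h : MinCex A B) {V B₀ : Subgroup G}
    (hAV : A ≤ Subgroup.normalizer (V : Set G)) (hB₀ : B₀ ≠ ⊥)
    (hBB₀ : B ≤ Subgroup.normalizer (B₀ : Set G))
    (hB₀V : B₀ ≤ Subgroup.normalizer (V : Set G)) :
    Subgroup.normalizer (V : Set G) = ⊤ := by
  haveI := h.simple
  have hcl : Subgroup.normalClosure (B₀ : Set G) ≤ Subgroup.normalizer (V : Set G) := by
    unfold Subgroup.normalClosure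
    rw [Subgroup.closure_le]
    intro x hx
    obtain ⟨y, hy, hconj⟩ := Group.mem_conjugatesOfSet_iff.1 hx
    obtain ⟨c, rfl⟩ := isConj_iff.1 hconj
    obtain ⟨a, ha, b, hb, rfl⟩ := h.cfg.fact c
    have h1 : b * y * b⁻¹ ∈ B₀ := conj_mem_of_mem_normalizer (hBB₀ hb) hy
    have h2 : a * b * y * (a * b)⁻¹ = a * (b * y * b⁻¹) * a⁻¹ := by group
    rw [SetLike.mem_coe, h2]
    exact Subgroup.mul_mem _ (Subgroup.mul_mem _ (hAV ha) (hB₀V h1)) (Subgroup.inv_mem _ (hAV ha))
  have hn : (Subgroup.normalClosure (B₀ : Set G)).Normal := Subgroup.normalClosure_normal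
  rcases hn.eq_bot_or_eq_top with h1 | h1
  · exfalso; apply hB₀; rw [eq_bot_iff, ← h1]; exact Subgroup.le_normalClosure
  · rw [eq_top_iff, ← h1]; exact hcl

end basics

end Cfsg.Agent.Lib.Helper57.Wie
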