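import Mathlib

set_option autoImplicit false

namespace Cfsg.Agent.Lib.Helper57

section RealPart

open Real

/-- A variant of `Bertrand.real_main_inequality` with an extra factor `2 * x`. -/
theorem real_main_inequality_two {x : ℝ} (x_large : (512 : ℝ) ≤ x) :
    x * (2 * x) * (2 * x) ^ √(2 * x) * 4 ^ (2 * x / 3) ≤ 4 ^ x := by
  let f : ℝ → ℝ := fun x => log x + (log x + √(2 * x) * log (2 * x)) - log 4 / 3 * x + log 2
  have hf' : ∀ x, 0 < x → 0 < x * (2 * x) * (2 * x) ^ √(2 * x) / 4 ^ (x / 3) := fun x h =>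
    div_pos (mul_pos (mul_pos h (mul_pos two_pos h)) (rpow_pos_of_pos (mul_pos two_pos h) _))
      (rpow_pos_of_pos four_pos _)
  have hf : ∀ x, 0 < x → f x = log (x * (2 * x) * (2 * x) ^ √(2 * x) / 4 ^ (x / 3)) := by
    intro x h5
    have h6 := mul_pos (zero_lt_two' ℝ) h5
    have h7 := rpow_pos_of_pos h6 (√(2 * x))
    rw [log_div (mul_pos (mul_pos h5 h6) h7).ne' (rpow_pos_of_pos four_pos _).ne',
      log_mul (mul_pos h5 h6).ne' h7.ne', log_mul h5.ne' h6.ne', log_mul two_ne_zero h5.ne',
      log_rpow h6, log_rpow zero_lt_four, log_mul two_ne_zero h5.ne']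
    simp only [f]
    rw [log_mul two_ne_zero h5.ne']
    ring
  have h5 : 0 < x := lt_of_lt_of_le (by norm_num1) x_large
  rw [← div_le_one (rpow_pos_of_pos four_pos x), ← div_div_eq_mul_div, ← rpow_sub four_pos, ←
    mul_div 2 x, mul_div_left_comm, ← mul_one_sub, (by norm_num1 : (1 : ℝ) - 2 / 3 = 1 / 3),
    mul_one_div, ← log_nonpos_iff (hf' x h5).le, ← hf x h5]
  have h : ConcaveOn ℝ (Set.Ioi 0.5) f := by
    apply ConcaveOn.add_const
    apply ConcaveOn.sub
    · apply ConcaveOn.add
      · exact strictConcaveOn_log_Ioi.concaveOn.subset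
          (Set.Ioi_subset_Ioi (by norm_num)) (convex_Ioi 0.5)
      apply ConcaveOn.add
      · exact strictConcaveOn_log_Ioi.concaveOn.subset
          (Set.Ioi_subset_Ioi (by norm_num)) (convex_Ioi 0.5)
      convert!
        ((strictConcaveOn_sqrt_mul_log_Ioi.concaveOn.comp_linearMap ((2 : ℝ) • LinearMap.id)))
        using 1
      ext x
      simp only [Set.mem_Ioi, Set.mem_preimage, LinearMap.smul_apply,
        LinearMap.id_coe, id_eq, smul_eq_mul]
      rw [← mul_lt_mul_iff_right₀ (two_pos)]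
      norm_num1
      rfl
    apply ConvexOn.smul
    · refine div_nonneg (log_nonneg (by norm_num1)) (by norm_num1)
    · exact convexOn_id (convex_Ioi (0.5 : ℝ))
  suffices ∃ x1 x2, 0.5 < x1 ∧ x1 < x2 ∧ x2 ≤ x ∧ 0 ≤ f x1 ∧ f x2 ≤ 0 by
    obtain ⟨x1, x2, h1, h2, h0, h3, h4⟩ := this
    exact (h.right_le_of_le_left'' h1 ((h1.trans h2).trans_le h0) h2 h0 (h4.trans h3)).trans h4
  refine ⟨18, 512, by norm_num1, by norm_num1, x_large, ?_, ?_⟩
  · have : √(2 * 18 : ℝ) = 6 := (sqrt_eq_iff_mul_self_eq_of_pos (by norm_num1)).mpr (by norm_num1)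
    rw [hf _ (by norm_num1), log_nonneg_iff (by positivity), this, one_le_div (by norm_num1)]
    norm_num1
  · have : √(2 * 512) = 32 :=
      (sqrt_eq_iff_mul_self_eq_of_pos (by norm_num1)).mpr (by norm_num1)
    rw [hf _ (by norm_num1), log_nonpos_iff (hf' _ (by norm_num1)).le, this,
        div_le_one (by positivity)]
    have h1 : (512 : ℝ) * (2 * 512) * (2 * 512) ^ (32 : ℝ) ≤ (4 : ℝ) ^ (170 : ℝ) := by
      have e1 : ((2 : ℝ) * 512) ^ (32 : ℝ) = ((2 : ℝ) * 512) ^ (32 : ℕ) := by
        rw [← Real.rpow_natCast]; norm_num1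
      have e2 : (4 : ℝ) ^ (170 : ℝ) = (4 : ℝ) ^ (170 : ℕ) := by
        rw [← Real.rpow_natCast]; norm_num1
      rw [e1, e2]
      norm_num1
    refine h1.trans ?_
    apply rpow_le_rpow_of_exponent_le
    all_goals norm_num1


end RealPart

section NatPart

open Nat

/-- Natural-number form of `real_main_inequality_two`. -/
theorem main_inequality_two {n : ℕ} (n_large : 512 ≤ n) :
    n * (2 * n) * (2 * n) ^ sqrt (2 * n) * 4 ^ (2 * n / 3) ≤ 4 ^ n := by
  rw [← @cast_le ℝ]
  simp only [cast_mul, cast_pow, ← Real.rpow_natCast, cast_ofNat]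
  refine _root_.trans ?_ (real_main_inequality_two (by exact_mod_cast n_large))
  gcongr
  · have n2_pos : 0 < 2 * n := by positivity
    exact mod_cast n2_pos
  · exact_mod_cast Real.nat_sqrt_le_real_sqrt
  · norm_num1
  · exact cast_div_le.trans (by norm_cast)

/-- The part of the central binomial coefficient supported on the primes at most `2n/3`. -/
theorem prod_small_le (n : ℕ) (n_pos : 0 < n) :
    ∏ p ∈ Finset.range (2 * n / 3 + 1), p ^ (centralBinom n).factorization p ≤
      (2 * n) ^ sqrt (2 * n) * 4 ^ (2 * n / 3) := by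
  have n2_pos : 1 ≤ 2 * n := mul_pos (zero_lt_two' ℕ) n_pos
  let S := {p ∈ Finset.range (2 * n / 3 + 1) | Nat.Prime p}
  let f x := x ^ n.centralBinom.factorization x
  have : ∏ x ∈ S, f x = ∏ x ∈ Finset.range (2 * n / 3 + 1), f x := by
    refine Finset.prod_filter_of_ne fun p _ h => ?_
    contrapose h; dsimp only [f]
    rw [factorization_eq_zero_of_not_prime n.centralBinom h, _root_.pow_zero]
  rw [← this, ← Finset.prod_filter_mul_prod_filter_not S (· ≤ sqrt (2 * n))]
  apply mul_le_mul'
  · refine (Finset.prod_le_prod' fun p _ => (?_ : f p ≤ 2 * n)).trans ?_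
    · exact pow_factorization_choose_le (mul_pos two_pos n_pos)
    have : (Finset.Icc 1 (sqrt (2 * n))).card = sqrt (2 * n) := by rw [card_Icc, Nat.add_sub_cancel]
    rw [Finset.prod_const]
    refine pow_right_mono₀ n2_pos ((Finset.card_le_card fun x hx => ?_).trans this.le)
    obtain ⟨h1, h2⟩ := Finset.mem_filter.1 hx
    exact Finset.mem_Icc.mpr ⟨(Finset.mem_filter.1 h1).2.one_lt.le, h2⟩
  · refine le_trans ?_ (primorial_le_four_pow (2 * n / 3))
    refine (Finset.prod_le_prod' fun p hp => (?_ : f p ≤ p)).trans ?_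
    · obtain ⟨h1, h2⟩ := Finset.mem_filter.1 hp
      refine (pow_right_mono₀ (Finset.mem_filter.1 h1).2.one_lt.le ?_).trans (pow_one p).le
      exact Nat.factorization_choose_le_one (sqrt_lt'.mp <| not_le.1 h2)
    refine Finset.prod_le_prod_of_subset_of_one_le' (Finset.filter_subset _ _) ?_
    exact fun p hp _ => (Finset.mem_filter.1 hp).2.one_lt.le

/-- If `p₀` is the only prime in `(n, 2n]`, the central binomial coefficient is small. -/
theorem centralBinom_le_of_one_prime (n : ℕ) (n_large : 2 < n) (p₀ : ℕ)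
    (hp₀ : p₀.Prime) (hn₀ : n < p₀) (h₀ : p₀ ≤ 2 * n)
    (only : ∀ p : ℕ, p.Prime → n < p → p ≤ 2 * n → p = p₀) :
    centralBinom n ≤ (2 * n) ^ sqrt (2 * n) * 4 ^ (2 * n / 3) * (2 * n) := by
  have n_pos : 0 < n := by omega
  have hnot : p₀ ∉ Finset.range (2 * n / 3 + 1) := by
    rw [Finset.mem_range]
    omega
  have key : centralBinom n =
      ∏ p ∈ insert p₀ (Finset.range (2 * n / 3 + 1)), p ^ (centralBinom n).factorization p := by
    refine (Eq.trans ?_ n.prod_pow_factorization_centralBinom).symm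
    apply Finset.prod_subset
    · intro x hx
      rw [Finset.mem_insert] at hx
      rw [Finset.mem_range]
      rcases hx with rfl | hx
      · omega
      · rw [Finset.mem_range] at hx
        omega
    intro x hx h2x
    rw [Finset.mem_range, Nat.lt_succ_iff] at hx
    rw [Finset.mem_insert, not_or, Finset.mem_range, Nat.lt_succ_iff, not_le] at h2x
    obtain ⟨hne, h2x⟩ := h2x
    rw [div_lt_iff_lt_mul three_pos, mul_comm x] at h2x
    by_cases hxp : x.Prime
    · by_cases hxn : x ≤ n
      · rw [factorization_centralBinom_of_two_mul_self_lt_three_mul n_large hxn h2x, Nat.pow_zero]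
      · exact absurd (only x hxp (by omega) hx) hne
    · rw [factorization_eq_zero_of_not_prime n.centralBinom hxp, Nat.pow_zero]
  rw [key, Finset.prod_insert hnot, mul_comm]
  apply mul_le_mul'
  · exact prod_small_le n n_pos
  · exact pow_factorization_choose_le (mul_pos two_pos n_pos)

/-- For large `n` there are two primes in `(n, 2n]`. -/
theorem exists_two_primes_eventually (n : ℕ) (n_large : 512 ≤ n) :
    ∃ p q : ℕ, p.Prime ∧ q.Prime ∧ n < p ∧ p < q ∧ q ≤ 2 * n := by
  obtain ⟨p, hp, hnp, hp2n⟩ := Nat.exists_prime_lt_and_le_two_mul n (by omega)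
  by_contra hcon
  push Not at hcon
  have only : ∀ q : ℕ, q.Prime → n < q → q ≤ 2 * n → q = p := by
    intro q hq hnq hq2n
    by_contra hne
    rcases Nat.lt_or_gt_of_ne hne with h | h
    · exact absurd hp2n (not_le.mpr (hcon q p hq hp hnq h))
    · exact absurd hq2n (not_le.mpr (hcon p q hp hq hnp h))
  have h1 : 4 ^ n < n * n.centralBinom :=
    Nat.four_pow_lt_mul_centralBinom n (le_trans (by norm_num1) n_large)
  have h2 := centralBinom_le_of_one_prime n (by omega) p hp hnp hp2n only
  have h3 := main_inequality_two n_large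
  have h4 : n * n.centralBinom ≤ n * ((2 * n) ^ sqrt (2 * n) * 4 ^ (2 * n / 3) * (2 * n)) :=
    Nat.mul_le_mul_left n h2
  have h5 : n * ((2 * n) ^ sqrt (2 * n) * 4 ^ (2 * n / 3) * (2 * n)) =
      n * (2 * n) * (2 * n) ^ sqrt (2 * n) * 4 ^ (2 * n / 3) := by ring
  omega

theorem two_primes_step {n : ℕ} (lo a b : ℕ) (ha : a.Prime) (hb : b.Prime) (hab : a < b)
    (hb2 : b ≤ 2 * lo) (H : n < lo → ∃ p q : ℕ, p.Prime ∧ q.Prime ∧ n < p ∧ p < q ∧ q ≤ 2 * n)
    (hn : n < a) : ∃ p q : ℕ, p.Prime ∧ q.Prime ∧ n < p ∧ p < q ∧ q ≤ 2 * n := by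
  by_cases h : n < lo
  · exact H h
  · exact ⟨a, b, ha, hb, hn, hab, by omega⟩

/-- For `n ≥ 6` there are two primes in `(n, 2n]`. -/
theorem exists_two_primes (n : ℕ) (hn : 6 ≤ n) :
    ∃ p q : ℕ, p.Prime ∧ q.Prime ∧ n < p ∧ p < q ∧ q ≤ 2 * n := by
  rcases lt_or_ge 511 n with h | h
  · exact exists_two_primes_eventually n h
  replace h : n < 547 := h.trans_lt (by norm_num1)
  revert h
  refine two_primes_step 317 547 631 (by norm_num1) (by norm_num1) (by norm_num1) (by norm_num1) ?_
  refine two_primes_step 277 317 547 (by norm_num1) (by norm_num1) (by norm_num1) (by norm_num1) ?_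
  refine two_primes_step 163 277 317 (by norm_num1) (by norm_num1) (by norm_num1) (by norm_num1) ?_
  refine two_primes_step 139 163 277 (by norm_num1) (by norm_num1) (by norm_num1) (by norm_num1) ?_
  refine two_primes_step 83 139 163 (by norm_num1) (by norm_num1) (by norm_num1) (by norm_num1) ?_
  refine two_primes_step 73 83 139 (by norm_num1) (by norm_num1) (by norm_num1) (by norm_num1) ?_
  refine two_primes_step 43 73 83 (by norm_num1) (by norm_num1) (by norm_num1) (by norm_num1) ?_
  refine two_primes_step 37 43 73 (by norm_num1) (by norm_num1) (by norm_num1) (by norm_num1) ?_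
  refine two_primes_step 23 37 43 (by norm_num1) (by norm_num1) (by norm_num1) (by norm_num1) ?_
  refine two_primes_step 19 23 37 (by norm_num1) (by norm_num1) (by norm_num1) (by norm_num1) ?_
  refine two_primes_step 13 19 23 (by norm_num1) (by norm_num1) (by norm_num1) (by norm_num1) ?_
  refine two_primes_step 11 13 19 (by norm_num1) (by norm_num1) (by norm_num1) (by norm_num1) ?_
  refine two_primes_step 7 11 13 (by norm_num1) (by norm_num1) (by norm_num1) (by norm_num1) ?_
  refine two_primes_step 6 7 11 (by norm_num1) (by norm_num1) (by norm_num1) (by norm_num1) ?_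
  intro h
  omega

end NatPart

end Cfsg.Agent.Lib.Helper57
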