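import Mathlib
import Cfsg.Agent.Lib.Helper57.TwoPrimes

set_option autoImplicit false

namespace Cfsg.Agent.Lib.Helper57

open Nat

/-- A prime `p` with `n < 2p` divides `n!` at most once. -/
theorem sq_not_dvd_factorial {p n : ℕ} (hp : p.Prime) (hn : n < 2 * p) : ¬ p ^ 2 ∣ n ! := by
  have hp2 := hp.two_le
  have hlt : n < p ^ 2 := by nlinarith
  have hlog : Nat.log p n < 2 := by
    rcases Nat.eq_zero_or_pos n with h0 | hpos
    · subst h0; simp
    · exact (Nat.log_lt_iff_lt_pow hp.one_lt hpos.ne').mpr hlt
  rw [hp.pow_dvd_factorial_iff hlog]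
  have hdiv : n / p < 2 := (Nat.div_lt_iff_lt_mul hp.pos).mpr (by omega)
  simp
  omega

/-- If `p ^ i ∣ n!` for a prime `p` with `n < 2p`, then `i ≤ 1`. -/
theorem le_one_of_pow_dvd_factorial {p n i : ℕ} (hp : p.Prime) (hn : n < 2 * p)
    (h : p ^ i ∣ n !) : i ≤ 1 := by
  by_contra hlt
  exact sq_not_dvd_factorial hp hn ((pow_dvd_pow p (by omega)).trans h)

theorem half_factorial_dvd {n : ℕ} (h : 2 ≤ n) : n ! / 2 ∣ n ! :=
  Nat.div_dvd_of_dvd (Nat.dvd_factorial (by norm_num) h)

/-- An odd prime `p ≤ n` divides `n!/2`. -/
theorem prime_dvd_half_factorial {p n : ℕ} (hp : p.Prime) (hp2 : p ≠ 2) (hpn : p ≤ n) :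
    p ∣ n ! / 2 := by
  have h2n : 2 ≤ n := le_trans hp.two_le hpn
  have h1 : p ∣ n ! := (hp.dvd_factorial).mpr hpn
  have h2 : 2 ∣ n ! := Nat.dvd_factorial (by norm_num) h2n
  have h3 : n ! = 2 * (n ! / 2) := (Nat.mul_div_cancel' h2).symm
  rw [h3] at h1
  rcases (Nat.Prime.dvd_mul hp).mp h1 with h | h
  · exact absurd ((Nat.prime_dvd_prime_iff_eq hp Nat.prime_two).mp h) hp2
  · exact h

theorem le_of_pow_dvd {p M k i : ℕ} (h : ¬ p ^ (k + 1) ∣ M) (hi : p ^ i ∣ M) : i ≤ k := by
  by_contra hlt
  exact h ((pow_dvd_pow p (by omega)).trans hi)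

/-- The arithmetic input for non-solvability of groups with the order and spectrum of `A_n`. -/
theorem alt_primes (n : ℕ) (hn : 5 ≤ n) :
    ∃ p q : ℕ, p.Prime ∧ q.Prime ∧ p ≠ q ∧ p ∣ n ! / 2 ∧ q ∣ n ! / 2 ∧ n < p + q ∧
      (∀ i, 1 ≤ i → p ^ i ∣ n ! / 2 → ¬ q ∣ p ^ i - 1) ∧
      (∀ j, 1 ≤ j → q ^ j ∣ n ! / 2 → ¬ p ∣ q ^ j - 1) := by
  rcases Nat.lt_or_ge n 12 with hsmall | hbig
  · interval_cases n
    · -- n = 5
      have e : 5 ! / 2 = 60 := by decide
      rw [e]
      refine ⟨5, 3, by norm_num, by norm_num, by norm_num, by norm_num, by norm_num, by norm_num,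
        ?_, ?_⟩
      · intro i hi hd
        have := le_of_pow_dvd (k := 1) (by norm_num) hd
        interval_cases i; norm_num
      · intro i hi hd
        have := le_of_pow_dvd (k := 1) (by norm_num) hd
        interval_cases i; norm_num
    · -- n = 6
      have e : 6 ! / 2 = 360 := by decide
      rw [e]
      refine ⟨5, 3, by norm_num, by norm_num, by norm_num, by norm_num, by norm_num, by norm_num,
        ?_, ?_⟩
      · intro i hi hd
        have := le_of_pow_dvd (k := 1) (by norm_num) hd
        interval_cases i; norm_num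
      · intro i hi hd
        have := le_of_pow_dvd (k := 2) (by norm_num) hd
        interval_cases i <;> norm_num
    · -- n = 7
      have e : 7 ! / 2 = 2520 := by decide
      rw [e]
      refine ⟨7, 5, by norm_num, by norm_num, by norm_num, by norm_num, by norm_num, by norm_num,
        ?_, ?_⟩
      · intro i hi hd
        have := le_of_pow_dvd (k := 1) (by norm_num) hd
        interval_cases i; norm_num
      · intro i hi hd
        have := le_of_pow_dvd (k := 1) (by norm_num) hd
        interval_cases i; norm_num
    · -- n = 8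
      have e : 8 ! / 2 = 20160 := by decide
      rw [e]
      refine ⟨7, 5, by norm_num, by norm_num, by norm_num, by norm_num, by norm_num, by norm_num,
        ?_, ?_⟩
      · intro i hi hd
        have := le_of_pow_dvd (k := 1) (by norm_num) hd
        interval_cases i; norm_num
      · intro i hi hd
        have := le_of_pow_dvd (k := 1) (by norm_num) hd
        interval_cases i; norm_num
    · -- n = 9
      have e : 9 ! / 2 = 181440 := by decide
      rw [e]
      refine ⟨7, 5, by norm_num, by norm_num, by norm_num, by norm_num, by norm_num, by norm_num,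
        ?_, ?_⟩
      · intro i hi hd
        have := le_of_pow_dvd (k := 1) (by norm_num) hd
        interval_cases i; norm_num
      · intro i hi hd
        have := le_of_pow_dvd (k := 1) (by norm_num) hd
        interval_cases i; norm_num
    · -- n = 10
      have e : 10 ! / 2 = 1814400 := by decide
      rw [e]
      refine ⟨7, 5, by norm_num, by norm_num, by norm_num, by norm_num, by norm_num, by norm_num,
        ?_, ?_⟩
      · intro i hi hd
        have := le_of_pow_dvd (k := 1) (by norm_num) hd
        interval_cases i; norm_num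
      · intro i hi hd
        have := le_of_pow_dvd (k := 2) (by norm_num) hd
        interval_cases i <;> norm_num
    · -- n = 11
      have e : 11 ! / 2 = 19958400 := by decide
      rw [e]
      refine ⟨11, 7, by norm_num, by norm_num, by norm_num, by norm_num, by norm_num, by norm_num,
        ?_, ?_⟩
      · intro i hi hd
        have := le_of_pow_dvd (k := 1) (by norm_num) hd
        interval_cases i; norm_num
      · intro i hi hd
        have := le_of_pow_dvd (k := 1) (by norm_num) hd
        interval_cases i; norm_num
  · obtain ⟨p, q, hp, hq, hmp, hpq, hq2m⟩ := exists_two_primes (n / 2) (by omega)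
    have hqn : q ≤ n := by omega
    have hpn : p ≤ n := by omega
    have hn2p : n < 2 * p := by omega
    have hn2q : n < 2 * q := by omega
    have hp2 : p ≠ 2 := by omega
    have hq2 : q ≠ 2 := by omega
    refine ⟨p, q, hp, hq, hpq.ne, prime_dvd_half_factorial hp hp2 hpn,
      prime_dvd_half_factorial hq hq2 hqn, by omega, ?_, ?_⟩
    · intro i hi hd
      have hi1 : i ≤ 1 := le_one_of_pow_dvd_factorial hp hn2p (hd.trans (half_factorial_dvd (by omega)))
      have : i = 1 := by omega
      subst this
      rw [pow_one]
      apply Nat.not_dvd_of_pos_of_lt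
      · have := hp.two_le; omega
      · omega
    · intro j hj hd
      have hj1 : j ≤ 1 := le_one_of_pow_dvd_factorial hq hn2q (hd.trans (half_factorial_dvd (by omega)))
      have : j = 1 := by omega
      subst this
      rw [pow_one]
      intro hdvd
      obtain ⟨c, hc⟩ := hdvd
      have hq2' := hq.two_le
      have hc1 : c = 1 := by
        rcases Nat.lt_or_ge c 1 with h | h
        · have : c = 0 := by omega
          subst this
          omega
        · rcases Nat.lt_or_ge c 2 with h' | h'
          · omega
          · have : p * 2 ≤ p * c := Nat.mul_le_mul_left p h'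
            omega
      subst hc1
      have hqp : q = p + 1 := by omega
      rcases hp.eq_two_or_odd with h | h
      · exact hp2 h
      · rcases hq.eq_two_or_odd with h' | h'
        · exact hq2 h'
        · omega

end Cfsg.Agent.Lib.Helper57
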