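import Mathlib

set_option autoImplicit false

namespace Cfsg.Agent.Lib.Helper57

universe u

/-- An element `y` with `y ^ p = 1` lies in every normal subgroup of index prime to `p`. -/
theorem mem_of_pow_eq_one_of_coprime_index {K : Type u} [Group K] [Finite K] (M : Subgroup K)
    [M.Normal] {p : ℕ} (hco : Nat.Coprime p M.index) (y : K) (hy : y ^ p = 1) : y ∈ M := by
  have h1 : orderOf (QuotientGroup.mk' M y) ∣ p := by
    apply orderOf_dvd_of_pow_eq_one
    rw [← map_pow, hy, map_one]
  have h2 : orderOf (QuotientGroup.mk' M y) ∣ M.index := by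
    rw [Subgroup.index_eq_card]
    exact orderOf_dvd_natCard _
  have h3 : orderOf (QuotientGroup.mk' M y) = 1 := Nat.eq_one_of_dvd_coprimes hco h1 h2
  exact (QuotientGroup.eq_one_iff y).mp (orderOf_eq_one_iff.mp h3)

/-- The order of a join of two subgroups, one of them normal, divides the product of orders. -/
theorem card_sup_dvd_mul {K : Type u} [Group K] [Finite K] (A B : Subgroup K) [B.Normal] :
    Nat.card (A ⊔ B : Subgroup K) ∣ Nat.card A * Nat.card B := by
  have h1 : B.relIndex (A ⊔ B) = B.relIndex A := Subgroup.relIndex_sup_right A B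
  have h2 : B.relIndex (A ⊔ B) * Nat.card B = Nat.card (A ⊔ B : Subgroup K) := by
    have h3 := Subgroup.card_mul_index (B.subgroupOf (A ⊔ B))
    have h4 : Nat.card (B.subgroupOf (A ⊔ B)) = Nat.card B :=
      Nat.card_congr (Subgroup.subgroupOfEquivOfLe (le_sup_right : B ≤ A ⊔ B)).toEquiv
    rw [h4] at h3
    rw [Subgroup.relIndex, mul_comm]
    exact h3
  rw [← h2, h1]
  exact Nat.mul_dvd_mul_right (Subgroup.relIndex_dvd_card B A) _

/-- If a prime `p` divides the order of a finite group `G` exactly once, then `G` has normal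
subgroups `N < H` such that `p` divides `|H|` but not `|N|` and `H ⧸ N` is a simple group. -/
theorem exists_simple_chief_factor {G : Type u} [Group G] [Finite G] {p : ℕ} (hp : p.Prime)
    (hpG : p ∣ Nat.card G) (hp2 : ¬ p ^ 2 ∣ Nat.card G) :
    ∃ (N H : Subgroup G) (_ : N.Normal) (_ : H.Normal), N < H ∧ p ∣ Nat.card H ∧
      ¬ p ∣ Nat.card N ∧ IsSimpleGroup (↥H ⧸ N.subgroupOf H) := by
  classical
  have hfp : Fact p.Prime := ⟨hp⟩
  obtain ⟨H, ⟨hHn, hpH⟩, hHmin⟩ :=
    WellFounded.has_min (measure (fun H : Subgroup G => Nat.card H)).wf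
      {H : Subgroup G | H.Normal ∧ p ∣ Nat.card H}
      ⟨⊤, inferInstance, by rw [Subgroup.card_top]; exact hpG⟩
  obtain ⟨N, ⟨hNn, hNH, hpN⟩, hNmax⟩ :=
    WellFounded.has_min (measure (fun N : Subgroup G => Nat.card G - Nat.card N)).wf
      {N : Subgroup G | N.Normal ∧ N ≤ H ∧ ¬ p ∣ Nat.card N}
      ⟨⊥, inferInstance, bot_le, by rw [Subgroup.card_bot]; exact hp.one_lt.ne' ∘ Nat.dvd_one.mp⟩
  have hlt : N < H := lt_of_le_of_ne hNH (fun h => hpN (h ▸ hpH))
  have chief : ∀ M : Subgroup G, M.Normal → N ≤ M → M ≤ H → M = N ∨ M = H := by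
    intro M hM hNM hMH
    by_cases hpM : p ∣ Nat.card M
    · right
      have h1 : ¬ Nat.card M < Nat.card H := hHmin M ⟨hM, hpM⟩
      exact Subgroup.eq_of_le_of_card_ge hMH (not_lt.mp h1)
    · left
      have h1 : ¬ (Nat.card G - Nat.card M < Nat.card G - Nat.card N) :=
        hNmax M ⟨hM, hMH, hpM⟩
      have h2 : Nat.card M ≤ Nat.card G := Subgroup.card_le_card_group M
      have h3 : Nat.card N ≤ Nat.card G := Subgroup.card_le_card_group N
      have h4 : Nat.card M ≤ Nat.card N := by omega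
      exact (Subgroup.eq_of_le_of_card_ge hNM h4).symm
  refine ⟨N, H, hNn, hHn, hlt, hpH, hpN, ?_⟩
  have hNcard : Nat.card (N.subgroupOf H) = Nat.card N :=
    Nat.card_congr (Subgroup.subgroupOfEquivOfLe hNH).toEquiv
  have hNmap : (N.subgroupOf H).map H.subtype = N := by
    rw [Subgroup.subgroupOf_map_subtype, inf_of_le_left hNH]
  have hHdvd : Nat.card H ∣ Nat.card G := Subgroup.card_subgroup_dvd_card H
  have hnt : Nontrivial (↥H ⧸ N.subgroupOf H) := by
    rw [← Finite.one_lt_card_iff_nontrivial, ← Subgroup.index_eq_card]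
    have h1 : (N.subgroupOf H).index ≠ 1 := by
      rw [Ne, Subgroup.index_eq_one, Subgroup.subgroupOf_eq_top]
      exact fun h => hlt.not_ge h
    have h2 : (N.subgroupOf H).index ≠ 0 := Subgroup.index_ne_zero_of_finite
    omega
  refine { toNontrivial := hnt, eq_bot_or_eq_top_of_normal := ?_ }
  intro Mbar hMbar
  set f := QuotientGroup.mk' (N.subgroupOf H) with hf
  have hfsurj : Function.Surjective f := QuotientGroup.mk'_surjective _
  set M' : Subgroup ↥H := Mbar.comap f with hM'
  have hM'n : M'.Normal := hMbar.comap f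
  have hN'M' : N.subgroupOf H ≤ M' := by
    intro x hx
    rw [hM', Subgroup.mem_comap]
    have : f x = 1 := (QuotientGroup.eq_one_iff x).mpr hx
    rw [this]
    exact Mbar.one_mem
  have hMbar_eq : Mbar = M'.map f := (Subgroup.map_comap_eq_self_of_surjective hfsurj Mbar).symm
  by_cases hpM : p ∣ Nat.card M'
  · right
    -- `M'` is everything
    have hco : Nat.Coprime p M'.index := by
      rw [hp.coprime_iff_not_dvd]
      intro hidx
      have h1 : Nat.card M' * M'.index = Nat.card H := Subgroup.card_mul_index M'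
      have h2 : p ^ 2 ∣ Nat.card H := by
        rw [← h1, pow_two]
        exact Nat.mul_dvd_mul hpM hidx
      exact hp2 (h2.trans hHdvd)
    set MG : Subgroup G := M'.map H.subtype with hMG
    have hMGH : MG ≤ H := Subgroup.map_subtype_le M'
    have hNMG : N ≤ MG := by
      rw [← hNmap]
      exact Subgroup.map_mono hN'M'
    have hNC : N ≤ MG.normalCore := Subgroup.normal_le_normalCore.mpr hNMG
    have hCH : MG.normalCore ≤ H := (Subgroup.normalCore_le MG).trans hMGH
    obtain ⟨x, hx⟩ := exists_prime_orderOf_dvd_card' p hpM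
    have hxG : orderOf (((x : ↥H) : G)) = p := by
      rw [Subgroup.orderOf_coe, Subgroup.orderOf_coe]; exact hx
    have hxC : ((x : ↥H) : G) ∈ MG.normalCore := by
      intro g
      have hmem : g * ((x : ↥H) : G) * g⁻¹ ∈ H := hHn.conj_mem _ (x : ↥H).2 g
      have hy : (⟨g * ((x : ↥H) : G) * g⁻¹, hmem⟩ : ↥H) ^ p = 1 := by
        apply Subtype.ext
        rw [Subgroup.coe_pow, Subgroup.coe_one]
        show (g * ((x : ↥H) : G) * g⁻¹) ^ p = 1
        rw [conj_pow, ← hxG, pow_orderOf_eq_one, mul_one, mul_inv_cancel]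
      have hyM := mem_of_pow_eq_one_of_coprime_index M' hco _ hy
      exact ⟨_, hyM, rfl⟩
    have hpC : p ∣ Nat.card MG.normalCore := by
      have h1 : orderOf (⟨((x : ↥H) : G), hxC⟩ : MG.normalCore) = p := by
        rw [← Subgroup.orderOf_coe]; exact hxG
      rw [← h1]
      exact orderOf_dvd_natCard _
    have hCeq : MG.normalCore = H := by
      rcases chief MG.normalCore inferInstance hNC hCH with h | h
      · rw [h] at hpC; exact absurd hpC hpN
      · exact h
    have hM'top : M' = ⊤ := by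
      rw [eq_top_iff]
      intro h _
      have h1 : (h : G) ∈ MG := Subgroup.normalCore_le MG (by rw [hCeq]; exact h.2)
      obtain ⟨m, hm, hmeq⟩ := h1
      have : m = h := Subtype.ext hmeq
      rw [← this]
      exact hm
    rw [hMbar_eq, hM'top, ← MonoidHom.range_eq_map]
    exact MonoidHom.range_eq_top.mpr hfsurj
  · left
    -- `M'` is contained in `N`
    obtain ⟨A₀, ⟨hA₀n, hpA₀⟩, hA₀max⟩ :=
      WellFounded.has_min (measure (fun A : Subgroup ↥H => Nat.card H - Nat.card A)).wf
        {A : Subgroup ↥H | A.Normal ∧ ¬ p ∣ Nat.card A} ⟨M', hM'n, hpM⟩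
    have hall : ∀ A : Subgroup ↥H, A.Normal → ¬ p ∣ Nat.card A → A ≤ A₀ := by
      intro A hA hpA
      have hsn : (A ⊔ A₀).Normal := Subgroup.sup_normal A A₀
      have hdvd : Nat.card (A ⊔ A₀ : Subgroup ↥H) ∣ Nat.card A * Nat.card A₀ :=
        card_sup_dvd_mul A A₀
      have hps : ¬ p ∣ Nat.card (A ⊔ A₀ : Subgroup ↥H) := by
        intro h
        rcases (Nat.Prime.dvd_mul hp).mp (h.trans hdvd) with h' | h'
        · exact hpA h'
        · exact hpA₀ h'
      have h1 : ¬ (Nat.card H - Nat.card (A ⊔ A₀ : Subgroup ↥H) < Nat.card H - Nat.card A₀) :=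
        hA₀max (A ⊔ A₀) ⟨hsn, hps⟩
      have h2 : Nat.card (A ⊔ A₀ : Subgroup ↥H) ≤ Nat.card H := Subgroup.card_le_card_group _
      have h3 : Nat.card A₀ ≤ Nat.card H := Subgroup.card_le_card_group _
      have h4 : Nat.card (A ⊔ A₀ : Subgroup ↥H) ≤ Nat.card A₀ := by omega
      have h5 : A₀ = A ⊔ A₀ := Subgroup.eq_of_le_of_card_ge le_sup_right h4
      rw [h5]
      exact le_sup_left
    set B : Subgroup G := A₀.map H.subtype with hB
    have hBn : B.Normal := by
      refine ⟨?_⟩
      rintro b ⟨a, ha, rfl⟩ g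
      let φ : ↥H →* ↥H := (MulAut.conjNormal g : MulAut ↥H).toMonoidHom
      have hφinj : Function.Injective φ := (MulAut.conjNormal g : MulAut ↥H).injective
      have hφsurj : Function.Surjective φ := (MulAut.conjNormal g : MulAut ↥H).surjective
      have h1 : (A₀.map φ).Normal := hA₀n.map φ hφsurj
      have h2 : ¬ p ∣ Nat.card (A₀.map φ) := by
        rw [Subgroup.card_map_of_injective hφinj]; exact hpA₀
      have h3 : A₀.map φ ≤ A₀ := hall _ h1 h2
      have h4 : φ a ∈ A₀ := h3 (Subgroup.mem_map_of_mem φ ha)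
      refine ⟨φ a, h4, ?_⟩
      show ((MulAut.conjNormal g : MulAut ↥H) a : G) = g * (a : G) * g⁻¹
      exact MulAut.conjNormal_apply g a
    have hBH : B ≤ H := Subgroup.map_subtype_le A₀
    have hN'A₀ : N.subgroupOf H ≤ A₀ :=
      hall _ inferInstance (by rw [hNcard]; exact hpN)
    have hNB : N ≤ B := by
      rw [← hNmap]
      exact Subgroup.map_mono hN'A₀
    have hpB : ¬ p ∣ Nat.card B := by
      rw [hB, Subgroup.card_map_of_injective H.subtype_injective]; exact hpA₀
    have hBeq : B = N := by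
      rcases chief B hBn hNB hBH with h | h
      · exact h
      · rw [h] at hpB; exact absurd hpH hpB
    have hM'A₀ : M' ≤ A₀ := hall M' hM'n hpM
    have hM'N : M' ≤ N.subgroupOf H := by
      intro m hm
      rw [Subgroup.mem_subgroupOf, ← hBeq]
      exact ⟨m, hM'A₀ hm, rfl⟩
    rw [hMbar_eq, eq_bot_iff]
    rintro _ ⟨m, hm, rfl⟩
    rw [Subgroup.mem_bot]
    exact (QuotientGroup.eq_one_iff m).mpr (hM'N hm)

end Cfsg.Agent.Lib.Helper57
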