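import Mathlib

set_option autoImplicit false

namespace Cfsg.Agent.Lib.Helper57

/-- A prime dividing the lcm of a multiset of naturals divides one of its members. -/
theorem prime_dvd_multiset_lcm {p : ℕ} (hp : p.Prime) (s : Multiset ℕ) (h : p ∣ s.lcm) :
    ∃ a ∈ s, p ∣ a := by
  induction s using Multiset.induction_on with
  | empty =>
    simp at h
    exact absurd h hp.one_lt.ne'
  | cons a s ih =>
    rw [Multiset.lcm_cons, lcm_eq_nat_lcm] at h
    have h' : p ∣ a * s.lcm := h.trans (Nat.lcm_dvd_mul a s.lcm)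
    rcases (Nat.Prime.dvd_mul hp).mp h' with h1 | h1
    · exact ⟨a, Multiset.mem_cons_self a s, h1⟩
    · obtain ⟨b, hb, hpb⟩ := ih h1
      exact ⟨b, Multiset.mem_cons_of_mem hb, hpb⟩

theorem le_sum_of_mem_multiset {s : Multiset ℕ} {a : ℕ} (h : a ∈ s) : a ≤ s.sum := by
  obtain ⟨t, rfl⟩ := Multiset.exists_cons_of_mem h
  rw [Multiset.sum_cons]
  omega

theorem add_le_sum_of_mem_of_ne {s : Multiset ℕ} {a b : ℕ} (ha : a ∈ s) (hb : b ∈ s)
    (hab : a ≠ b) : a + b ≤ s.sum := by
  obtain ⟨t, rfl⟩ := Multiset.exists_cons_of_mem ha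
  rw [Multiset.sum_cons]
  have hb' : b ∈ t := by
    rcases Multiset.mem_cons.mp hb with h | h
    · exact absurd h.symm hab
    · exact h
  have := le_sum_of_mem_multiset hb'
  omega

/-- If the lcm of a multiset of naturals is divisible by two distinct primes `p`, `q`
and all entries are positive, then the sum is at least `p + q`. -/
theorem add_le_sum_of_dvd_lcm {p q : ℕ} (hp : p.Prime) (hq : q.Prime) (hpq : p ≠ q)
    (s : Multiset ℕ) (hpos : ∀ a ∈ s, 0 < a) (h : p * q ∣ s.lcm) : p + q ≤ s.sum := by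
  obtain ⟨a, ha, hpa⟩ := prime_dvd_multiset_lcm hp s ((Dvd.intro _ rfl).trans h)
  obtain ⟨b, hb, hqb⟩ := prime_dvd_multiset_lcm hq s ((Dvd.intro_left _ rfl).trans h)
  by_cases hab : a = b
  · subst hab
    have hpq' : p * q ∣ a :=
      Nat.Coprime.mul_dvd_of_dvd_of_dvd ((Nat.coprime_primes hp hq).mpr hpq) hpa hqb
    have h1 : p * q ≤ a := Nat.le_of_dvd (hpos a ha) hpq'
    have h2 : a ≤ s.sum := le_sum_of_mem_multiset ha
    have h3 : p + q ≤ p * q := by
      have hp2 := hp.two_le
      have hq2 := hq.two_le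
      nlinarith
    omega
  · have h1 := add_le_sum_of_mem_of_ne ha hb hab
    have h2 : p ≤ a := Nat.le_of_dvd (hpos a ha) hpa
    have h3 : q ≤ b := Nat.le_of_dvd (hpos b hb) hqb
    omega

/-- A permutation of `Fin n` whose order is divisible by `p * q` for distinct primes `p`, `q`
forces `p + q ≤ n`. -/
theorem add_le_of_mul_dvd_orderOf_perm {n p q : ℕ} (hp : p.Prime) (hq : q.Prime) (hpq : p ≠ q)
    (σ : Equiv.Perm (Fin n)) (h : p * q ∣ orderOf σ) : p + q ≤ n := by
  have h1 : p + q ≤ σ.cycleType.sum := by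
    apply add_le_sum_of_dvd_lcm hp hq hpq
    · intro a ha
      have := Equiv.Perm.two_le_of_mem_cycleType ha
      omega
    · rw [Equiv.Perm.lcm_cycleType]
      exact h
  have h2 := σ.sum_cycleType_le
  rw [Fintype.card_fin] at h2
  omega

/-- No element of the alternating group of degree `n` has order `p * q` when `n < p + q`. -/
theorem orderOf_alt_ne_mul {n p q : ℕ} (hp : p.Prime) (hq : q.Prime) (hpq : p ≠ q)
    (hn : n < p + q) (σ : alternatingGroup (Fin n)) : orderOf σ ≠ p * q := by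
  intro h
  have h1 : p * q ∣ orderOf (σ : Equiv.Perm (Fin n)) := by
    rw [Subgroup.orderOf_coe, h]
  have := add_le_of_mul_dvd_orderOf_perm hp hq hpq (σ : Equiv.Perm (Fin n)) h1
  omega

end Cfsg.Agent.Lib.Helper57
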