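import Mathlib

set_option autoImplicit false

namespace Cfsg.Agent.Lib.Helper57

universe u

/-- An element `x` with `x ^ p = 1` normalizing a subgroup `Q` whose order is not `1` mod `p`
commutes with some nontrivial element of `Q`. -/
theorem exists_commute_of_normalizer {G : Type u} [Group G] [Finite G] {p : ℕ} (hp : p.Prime)
    (Q : Subgroup G) (x : G) (hx : x ∈ Subgroup.normalizer (Q : Set G)) (hxp : x ^ p = 1)
    (hQ : ¬ p ∣ Nat.card Q - 1) : ∃ y ∈ Q, y ≠ 1 ∧ x * y = y * x := by
  classical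
  have : Fact p.Prime := ⟨hp⟩
  let Z : Subgroup G := Subgroup.zpowers x
  have hZle : Z ≤ Subgroup.normalizer (Q : Set G) := Subgroup.zpowers_le.mpr hx
  have hZp : IsPGroup p Z := by
    intro z
    refine ⟨1, ?_⟩
    obtain ⟨k, hk⟩ := Subgroup.mem_zpowers_iff.mp z.2
    apply Subtype.ext
    rw [pow_one, Subgroup.coe_pow, Subgroup.coe_one, ← hk, ← zpow_natCast, ← zpow_mul,
      mul_comm, zpow_mul, zpow_natCast, hxp, one_zpow]
  let act : MulAction Z Q :=
    { smul := fun z y => ⟨(z : G) * y * (z : G)⁻¹,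
        (Subgroup.mem_normalizer_iff.mp (hZle z.2) y).mp y.2⟩
      one_smul := by
        intro y
        apply Subtype.ext
        show ((1 : Z) : G) * y * ((1 : Z) : G)⁻¹ = y
        simp
      mul_smul := by
        intro a b y
        apply Subtype.ext
        show ((a * b : Z) : G) * y * ((a * b : Z) : G)⁻¹ = (a : G) * ((b : G) * y * (b : G)⁻¹) * (a : G)⁻¹
        simp [mul_assoc] }
  by_contra hcon
  push Not at hcon
  have hfix : MulAction.fixedPoints Z Q = {1} := by
    ext y
    constructor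
    · intro hy
      by_contra hy1
      have hy1' : (y : G) ≠ 1 := fun h => hy1 (Subtype.ext h)
      have h1 := hcon y y.2 hy1'
      have h2 := hy ⟨x, Subgroup.mem_zpowers x⟩
      have h3 : x * (y : G) * x⁻¹ = y := congrArg Subtype.val h2
      apply h1
      calc x * (y : G) = x * (y : G) * x⁻¹ * x := by group
        _ = (y : G) * x := by rw [h3]
    · intro hy z
      rw [Set.mem_singleton_iff] at hy
      subst hy
      apply Subtype.ext
      show (z : G) * ((1 : Q) : G) * (z : G)⁻¹ = ((1 : Q) : G)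
      simp
  have hmod := hZp.card_modEq_card_fixedPoints Q
  rw [hfix] at hmod
  have hone : Nat.card (({1} : Set Q)) = 1 := by
    rw [Nat.card_coe_set_eq, Set.ncard_singleton]
  rw [hone] at hmod
  have hpos : 1 ≤ Nat.card Q := Nat.card_pos
  exact hQ ((Nat.modEq_iff_dvd' hpos).mp hmod.symm)

/-- Frattini argument: if `p ∤ |N|`, `p ∣ |G|`, `q ∣ |N|` and `p ∤ q ^ k - 1` for the exact
power `q ^ k` of `q` dividing `|N|`, then `G` has an element of order `p * q`. -/
theorem exists_orderOf_of_normal {G : Type u} [Group G] [Finite G] (N : Subgroup G) [N.Normal]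
    {p q : ℕ} (hp : p.Prime) (hq : q.Prime) (hpq : p ≠ q)
    (hpN : ¬ p ∣ Nat.card N) (hpG : p ∣ Nat.card G) (_hqN : q ∣ Nat.card N)
    (hk : ¬ p ∣ q ^ ((Nat.card N).factorization q) - 1) : ∃ g : G, orderOf g = p * q := by
  classical
  have : Fact p.Prime := ⟨hp⟩
  have : Fact q.Prime := ⟨hq⟩
  obtain ⟨Q₀⟩ : Nonempty (Sylow q N) := inferInstance
  let Q : Subgroup G := (Q₀ : Subgroup N).map N.subtype
  have hQcard : Nat.card Q = q ^ ((Nat.card N).factorization q) := by
    rw [Subgroup.card_map_of_injective N.subtype_injective]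
    exact Q₀.card_eq_multiplicity
  have hfr : Subgroup.normalizer (Q : Set G) ⊔ N = ⊤ := Sylow.normalizer_sup_eq_top Q₀
  set L : Subgroup G := Subgroup.normalizer (Q : Set G) with hL
  have hpidx : p ∣ N.index := by
    have h1 : Nat.card N * N.index = Nat.card G := Subgroup.card_mul_index N
    rw [← h1] at hpG
    rcases (Nat.Prime.dvd_mul hp).mp hpG with h | h
    · exact absurd h hpN
    · exact h
  have hpL : p ∣ Nat.card L := by
    have h1 : N.relIndex (L ⊔ N) = N.relIndex L := Subgroup.relIndex_sup_right L N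
    rw [hfr, Subgroup.relIndex_top_right] at h1
    rw [h1] at hpidx
    exact hpidx.trans (Subgroup.relIndex_dvd_card N L)
  obtain ⟨x', hx'⟩ := exists_prime_orderOf_dvd_card' p hpL
  have hxo : orderOf (x' : G) = p := by rw [Subgroup.orderOf_coe]; exact hx'
  have hxp : (x' : G) ^ p = 1 := by rw [← hxo]; exact pow_orderOf_eq_one _
  obtain ⟨y, hyQ, hy1, hcomm⟩ := exists_commute_of_normalizer hp Q (x' : G) x'.2 hxp
    (by rw [hQcard]; exact hk)
  have hyo : orderOf y ∣ q ^ ((Nat.card N).factorization q) := by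
    have h1 : orderOf (⟨y, hyQ⟩ : Q) ∣ Nat.card Q := orderOf_dvd_natCard _
    rw [hQcard] at h1
    have h2 : orderOf ((⟨y, hyQ⟩ : Q) : G) = orderOf (⟨y, hyQ⟩ : Q) := Subgroup.orderOf_coe _
    rw [← h2] at h1
    exact h1
  obtain ⟨j, -, hj⟩ := (Nat.dvd_prime_pow hq).mp hyo
  have hj1 : j ≠ 0 := by
    intro h0
    rw [h0, pow_zero] at hj
    exact hy1 (orderOf_eq_one_iff.mp hj)
  have hqy : q ∣ orderOf y := by
    rw [hj]
    exact dvd_pow_self q hj1
  have hy0 : orderOf y ≠ 0 := (orderOf_pos y).ne'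
  have hy' : orderOf (y ^ (orderOf y / q)) = q := orderOf_pow_orderOf_div hy0 hqy
  have hc : Commute (x' : G) (y ^ (orderOf y / q)) := Commute.pow_right hcomm _
  refine ⟨(x' : G) * y ^ (orderOf y / q), ?_⟩
  rw [hc.orderOf_mul_eq_mul_orderOf_of_coprime, hxo, hy']
  rw [hxo, hy']
  exact (Nat.coprime_primes hp hq).mpr hpq

/-- If `G ⧸ N` is commutative and `p`, `q` divide `|G|` but not `|N|`, then `G` has an element
of order `p * q`. -/
theorem exists_orderOf_of_comm_quotient {G : Type u} [Group G] [Finite G] (N : Subgroup G)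
    [N.Normal] (hcomm : ∀ a b : G ⧸ N, a * b = b * a)
    {p q : ℕ} (hp : p.Prime) (hq : q.Prime) (hpq : p ≠ q)
    (hpN : ¬ p ∣ Nat.card N) (hqN : ¬ q ∣ Nat.card N) (hpG : p ∣ Nat.card G)
    (hqG : q ∣ Nat.card G) : ∃ g : G, orderOf g = p * q := by
  classical
  have : Fact p.Prime := ⟨hp⟩
  have : Fact q.Prime := ⟨hq⟩
  have hcard : Nat.card G = Nat.card (G ⧸ N) * Nat.card N :=
    Subgroup.card_eq_card_quotient_mul_card_subgroup N
  have hpQ : p ∣ Nat.card (G ⧸ N) := by
    rw [hcard] at hpG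
    rcases (Nat.Prime.dvd_mul hp).mp hpG with h | h
    · exact h
    · exact absurd h hpN
  have hqQ : q ∣ Nat.card (G ⧸ N) := by
    rw [hcard] at hqG
    rcases (Nat.Prime.dvd_mul hq).mp hqG with h | h
    · exact h
    · exact absurd h hqN
  obtain ⟨a, ha⟩ := exists_prime_orderOf_dvd_card' p hpQ
  obtain ⟨b, hb⟩ := exists_prime_orderOf_dvd_card' q hqQ
  have hc : Commute a b := hcomm a b
  have hab : orderOf (a * b) = p * q := by
    rw [hc.orderOf_mul_eq_mul_orderOf_of_coprime, ha, hb]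
    rw [ha, hb]
    exact (Nat.coprime_primes hp hq).mpr hpq
  obtain ⟨g, hg⟩ := QuotientGroup.mk_surjective (a * b)
  have hdvd : p * q ∣ orderOf g := by
    rw [← hab, ← hg]
    exact orderOf_map_dvd (QuotientGroup.mk' N) g
  exact ⟨g ^ (orderOf g / (p * q)), orderOf_pow_orderOf_div (orderOf_pos g).ne' hdvd⟩

theorem exists_orderOf_mul_of_solvable_aux (n : ℕ) :
    ∀ (G : Type u) [Group G] [Finite G] [Group.IsSolvable G], Nat.card G = n →
      ∀ (p q : ℕ), p.Prime → q.Prime → p ≠ q → p ∣ Nat.card G → q ∣ Nat.card G →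
      (∀ i, 1 ≤ i → p ^ i ∣ Nat.card G → ¬ q ∣ p ^ i - 1) →
      (∀ j, 1 ≤ j → q ^ j ∣ Nat.card G → ¬ p ∣ q ^ j - 1) → ∃ g : G, orderOf g = p * q := by
  induction n using Nat.strong_induction_on with
  | _ n ih =>
    intro G _ _ _ hn p q hp hq hpq hpG hqG h1 h2
    have hGpos : 0 < Nat.card G := Nat.card_pos
    have hnt : Nontrivial G := by
      rw [← Finite.one_lt_card_iff_nontrivial]
      exact lt_of_lt_of_le hp.one_lt (Nat.le_of_dvd hGpos hpG)
    set N : Subgroup G := commutator G with hNdef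
    have hNlt : N < ⊤ := Group.IsSolvable.commutator_lt_top_of_nontrivial G
    have hNdvd : Nat.card N ∣ Nat.card G := Subgroup.card_subgroup_dvd_card N
    have hNpos : Nat.card N ≠ 0 := Nat.card_pos.ne'
    have hcardlt : Nat.card N < n := by
      rw [← hn]
      refine lt_of_le_of_ne (Nat.le_of_dvd hGpos hNdvd) ?_
      intro heq
      exact hNlt.ne (Subgroup.eq_top_of_card_eq N heq)
    have hcomm : ∀ a b : G ⧸ N, a * b = b * a := by
      intro a b
      have : ∀ a b : Abelianization G, a * b = b * a := fun a b => mul_comm a b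
      exact this a b
    by_cases hpN : p ∣ Nat.card N
    · by_cases hqN : q ∣ Nat.card N
      · obtain ⟨g, hg⟩ := ih (Nat.card N) hcardlt N rfl p q hp hq hpq hpN hqN
          (fun i hi hd => h1 i hi (hd.trans hNdvd)) (fun j hj hd => h2 j hj (hd.trans hNdvd))
        exact ⟨(g : G), by rw [Subgroup.orderOf_coe]; exact hg⟩
      · obtain ⟨g, hg⟩ := exists_orderOf_of_normal N hq hp hpq.symm hqN hqG hpN
          (h1 _ (hp.factorization_pos_of_dvd hNpos hpN)
            ((Nat.ordProj_dvd (Nat.card N) p).trans hNdvd))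
        exact ⟨g, by rw [hg, mul_comm]⟩
    · by_cases hqN : q ∣ Nat.card N
      · exact exists_orderOf_of_normal N hp hq hpq hpN hpG hqN
          (h2 _ (hq.factorization_pos_of_dvd hNpos hqN)
            ((Nat.ordProj_dvd (Nat.card N) q).trans hNdvd))
      · exact exists_orderOf_of_comm_quotient N hcomm hp hq hpq hpN hqN hpG hqG

/-- A finite solvable group whose order is divisible by distinct primes `p`, `q` such that
`q ∤ p ^ i - 1` and `p ∤ q ^ j - 1` for all prime powers `p ^ i`, `q ^ j` (`i, j ≥ 1`) dividing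
the order, has an element of order `p * q`. -/
theorem exists_orderOf_mul_of_solvable {G : Type u} [Group G] [Finite G] [Group.IsSolvable G]
    {p q : ℕ} (hp : p.Prime) (hq : q.Prime) (hpq : p ≠ q) (hpG : p ∣ Nat.card G)
    (hqG : q ∣ Nat.card G)
    (h1 : ∀ i, 1 ≤ i → p ^ i ∣ Nat.card G → ¬ q ∣ p ^ i - 1)
    (h2 : ∀ j, 1 ≤ j → q ^ j ∣ Nat.card G → ¬ p ∣ q ^ j - 1) : ∃ g : G, orderOf g = p * q :=
  exists_orderOf_mul_of_solvable_aux (Nat.card G) G rfl p q hp hq hpq hpG hqG h1 h2

end Cfsg.Agent.Lib.Helper57
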