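import Mathlib
import Cfsg.Agent.Lib.Helper57.WieA
import Cfsg.Agent.S0019
import Cfsg.Agent.S0561
import Cfsg.Agent.S0562

/-!
# Wielandt's theorem: generation by central elements, centralizers of central elements
-/

set_option autoImplicit false
set_option linter.style.haveILetI false

namespace Cfsg.Agent.Lib.Helper57.Wie

open scoped Pointwise

variable {G : Type*} [Group G] [Finite G] {A B : Subgroup G}

omit [Finite G] in
theorem orderOf_conj_eq (g x : G) : orderOf (g * x * g⁻¹) = orderOf x := by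
  have h1 := (MulAut.conj g).orderOf_eq x
  rwa [MulAut.conj_apply] at h1

omit [Finite G] in
theorem orderOf_conj_eq' (g x : G) : orderOf (g⁻¹ * x * g) = orderOf x := by
  have h1 := orderOf_conj_eq g⁻¹ x
  rwa [inv_inv] at h1

omit [Finite G] in
theorem eq_one_of_mem_pgroups {p q : ℕ} (hp : p.Prime) (hq : q.Prime) (hpq : p ≠ q)
    {P Q : Subgroup G} (hP : IsPGroup p P) (hQ : IsPGroup q Q) {x : G} (hx : x ∈ P)
    (hx' : x ∈ Q) : x = 1 := by
  obtain ⟨i, hi⟩ := orderOf_of_mem_pgroup hp hP hx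
  obtain ⟨j, hj⟩ := orderOf_of_mem_pgroup hq hQ hx'
  have h1 : orderOf x ∣ p ^ i := hi ▸ dvd_rfl
  have h2 : orderOf x ∣ q ^ j := hj ▸ dvd_rfl
  exact orderOf_eq_one_iff.1
    (Nat.eq_one_of_dvd_coprimes (Nat.Coprime.pow i j ((Nat.coprime_primes hp hq).2 hpq)) h1 h2)

theorem dvd_card_of_pgroup_ne_bot {p : ℕ} (hp : p.Prime) {V : Subgroup G} (hV : IsPGroup p V)
    (hV0 : V ≠ ⊥) : p ∣ Nat.card V := by
  haveI := Fact.mk hp
  obtain ⟨k, hk⟩ := IsPGroup.iff_card.1 hV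
  rw [hk]
  have hk0 : k ≠ 0 := by
    rintro rfl
    apply hV0
    rw [pow_zero] at hk
    exact Subgroup.card_eq_one.1 hk
  exact dvd_pow_self p hk0

theorem Cfg.hall_sylG (h : Cfg A B) {N : Subgroup G} (hN : Fac A B N) {p : ℕ} (hp : p.Prime) :
    (Nat.card ((sylG (A ⊓ N) p).subgroupOf N)).Coprime
      ((sylG (A ⊓ N) p).subgroupOf N).index := by
  haveI := Fact.mk hp
  have hPle : sylG (A ⊓ N) p ≤ N := (sylG_le _ _).trans inf_le_right
  have hcardP : Nat.card ((sylG (A ⊓ N) p).subgroupOf N) =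
      Nat.card ((Classical.arbitrary (Sylow p (A ⊓ N : Subgroup G)) : Sylow p _) :
        Subgroup (A ⊓ N : Subgroup G)) := by
    rw [Nat.card_congr (Subgroup.subgroupOfEquivOfLe hPle).toEquiv]
    exact Nat.card_congr
      (Subgroup.equivMapOfInjective _ _ (Subgroup.subtype_injective _)).symm.toEquiv
  have h1 := Subgroup.card_mul_index ((sylG (A ⊓ N) p).subgroupOf N)
  have h2 := Subgroup.card_mul_index ((Classical.arbitrary (Sylow p (A ⊓ N : Subgroup G)) :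
    Sylow p _) : Subgroup (A ⊓ N : Subgroup G))
  have h3 := h.card_fac hN
  have hidx : ((sylG (A ⊓ N) p).subgroupOf N).index =
      ((Classical.arbitrary (Sylow p (A ⊓ N : Subgroup G)) : Sylow p _) :
        Subgroup (A ⊓ N : Subgroup G)).index * Nat.card (B ⊓ N : Subgroup G) := by
    have hpos : 0 < Nat.card ((sylG (A ⊓ N) p).subgroupOf N) := Nat.card_pos
    apply Nat.eq_of_mul_eq_mul_left hpos
    rw [h1, h3, ← h2, hcardP, mul_assoc]
  rw [hidx]
  apply Nat.Coprime.mul_right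
  · rw [hcardP]
    obtain ⟨k, hk⟩ := (IsPGroup.iff_card.1
      (Classical.arbitrary (Sylow p (A ⊓ N : Subgroup G))).isPGroup')
    rw [hk]
    exact Nat.Coprime.pow_left k ((Nat.Prime.coprime_iff_not_dvd hp).2
      (Classical.arbitrary (Sylow p (A ⊓ N : Subgroup G))).not_dvd_index)
  · have hd : Nat.card ((sylG (A ⊓ N) p).subgroupOf N) ∣ Nat.card A := by
      rw [Nat.card_congr (Subgroup.subgroupOfEquivOfLe hPle).toEquiv]
      exact Subgroup.card_dvd_of_le ((sylG_le _ _).trans inf_le_left)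
    exact Nat.Coprime.coprime_dvd_left hd
      (Nat.Coprime.coprime_dvd_right (Subgroup.card_dvd_of_le inf_le_left) h.cop)

/-- in a proper factorized subgroup, the product of Sylow subgroups of the factors is a
solvable subgroup -/
theorem MinCex.exists_prod_sylG (h : MinCex A B) {N : Subgroup G} (hN : N ≠ ⊤) (hf : Fac A B N)
    {p q : ℕ} (hp : p.Prime) (hq : q.Prime) :
    ∃ D : Subgroup G, (D : Set G) = (sylG (A ⊓ N) p : Set G) * (sylG (B ⊓ N) q : Set G) ∧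
      D ≤ N ∧ Group.IsSolvable D := by
  haveI : Group.IsSolvable N := h.ih N hN hf
  have hPN : sylG (A ⊓ N) p ≤ N := (sylG_le _ _).trans inf_le_right
  have hQN : sylG (B ⊓ N) q ≤ N := (sylG_le _ _).trans inf_le_right
  have hnilA : Group.IsNilpotent (A ⊓ N : Subgroup G) := nil_of_le h.cfg.nilA inf_le_left
  have hnilB : Group.IsNilpotent (B ⊓ N : Subgroup G) := nil_of_le h.cfg.nilB inf_le_left
  have hle1 : (sylG (A ⊓ N) p).subgroupOf N ≤ (A ⊓ N).subgroupOf N := by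
    intro x hx
    exact Subgroup.mem_subgroupOf.2 (sylG_le _ _ (Subgroup.mem_subgroupOf.1 hx))
  have hle2 : (sylG (B ⊓ N) q).subgroupOf N ≤ (B ⊓ N).subgroupOf N := by
    intro x hx
    exact Subgroup.mem_subgroupOf.2 (sylG_le _ _ (Subgroup.mem_subgroupOf.1 hx))
  have key := Cfsg.Agent.S0561.result (G := N) ((A ⊓ N).subgroupOf N) ((B ⊓ N).subgroupOf N)
    ((sylG (A ⊓ N) p).subgroupOf N) ((sylG (B ⊓ N) q).subgroupOf N)
    (by
      intro g
      obtain ⟨a, ha, b, hb, e⟩ := hf g.1 g.2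
      exact ⟨⟨a, ha.2⟩, Subgroup.mem_subgroupOf.2 ha, ⟨b, hb.2⟩, Subgroup.mem_subgroupOf.2 hb,
        Subtype.ext e⟩)
    hle1
    (by
      rw [Subgroup.normal_subgroupOf_iff_le_normalizer hle1]
      apply le_normalizer_of_conj_mem
      intro k hk a ha
      rw [Subgroup.mem_subgroupOf] at hk ha ⊢
      exact conj_mem_of_mem_normalizer (le_normalizer_sylG hnilA hp hk) ha)
    hle2
    (by
      rw [Subgroup.normal_subgroupOf_iff_le_normalizer hle2]
      apply le_normalizer_of_conj_mem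
      intro k hk a ha
      rw [Subgroup.mem_subgroupOf] at hk ha ⊢
      exact conj_mem_of_mem_normalizer (le_normalizer_sylG hnilB hq hk) ha)
    (h.cfg.hall_sylG hf hp)
    (h.cfg.symm.hall_sylG hf.symm hq)
    1 1
  obtain ⟨S, hS⟩ := key
  rw [map_one, one_smul, one_smul] at hS
  refine ⟨S.map N.subtype, ?_, ?_, ?_⟩
  · ext g
    constructor
    · intro hg
      obtain ⟨s, hs, rfl⟩ := Subgroup.mem_map.1 hg
      have h1 : s ∈ (S : Set N) := hs
      rw [hS] at h1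
      obtain ⟨x, hx, y, hy, rfl⟩ := h1
      exact ⟨x.1, Subgroup.mem_subgroupOf.1 hx, y.1, Subgroup.mem_subgroupOf.1 hy, rfl⟩
    · rintro ⟨x, hx, y, hy, rfl⟩
      refine Subgroup.mem_map.2 ⟨⟨x, hPN hx⟩ * ⟨y, hQN hy⟩, ?_, rfl⟩
      have h1 : (⟨x, hPN hx⟩ * ⟨y, hQN hy⟩ : N) ∈ (S : Set N) := by
        rw [hS]
        exact ⟨_, Subgroup.mem_subgroupOf.2 hx, _, Subgroup.mem_subgroupOf.2 hy, rfl⟩
      exact h1
  · intro g hg
    obtain ⟨s, _, rfl⟩ := Subgroup.mem_map.1 hg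
    exact s.2
  · have hSs : Group.IsSolvable S := inferInstance
    exact Group.isSolvable_of_isSolvable_injective
      (f := (Subgroup.equivMapOfInjective S N.subtype N.subtype_injective).symm.toMonoidHom)
      (Subgroup.equivMapOfInjective S N.subtype N.subtype_injective).symm.injective

/-- a solvable product of a `p`-group and a `q`-group has a nontrivial normal subgroup
inside one of the factors -/
theorem exists_normal_pq {D P Q : Subgroup G} (hD : (D : Set G) = (P : Set G) * (Q : Set G))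
    (hs : Group.IsSolvable D) (hD0 : D ≠ ⊥) {p q : ℕ} (hp : p.Prime) (hq : q.Prime)
    (hpq : p ≠ q) (hP : IsPGroup p P) (hQ : IsPGroup q Q) :
    ∃ V : Subgroup G, V ≠ ⊥ ∧ D ≤ Subgroup.normalizer (V : Set G) ∧
      ((V ≤ P ∧ IsPGroup p V) ∨ (V ≤ Q ∧ IsPGroup q V)) := by
  haveI : Nontrivial D := (Subgroup.nontrivial_iff_ne_bot D).2 hD0
  obtain ⟨N₀, ℓ, hℓ, hNn, hN0, hNℓ⟩ := Cfsg.Agent.S0019.exists_normal_pgroup' D
  have hVD : N₀.map D.subtype ≤ D := by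
    intro g hg
    obtain ⟨s, _, rfl⟩ := Subgroup.mem_map.1 hg
    exact s.2
  have hV0 : N₀.map D.subtype ≠ ⊥ := fun hh =>
    hN0 ((Subgroup.map_eq_bot_iff_of_injective N₀ D.subtype_injective).1 hh)
  have hVℓ : IsPGroup ℓ (N₀.map D.subtype) := hNℓ.map D.subtype
  have hDV : D ≤ Subgroup.normalizer ((N₀.map D.subtype : Subgroup G) : Set G) := by
    apply le_normalizer_of_conj_mem
    intro x hx a ha
    obtain ⟨b, hb, rfl⟩ := Subgroup.mem_map.1 ha
    exact Subgroup.mem_map.2 ⟨⟨x, hx⟩ * b * ⟨x, hx⟩⁻¹, hNn.conj_mem b hb ⟨x, hx⟩, by simp⟩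
  have hPD : P ≤ D := by
    intro x hx
    have h1 : x ∈ (D : Set G) := by rw [hD]; exact ⟨x, hx, 1, Q.one_mem, mul_one x⟩
    exact h1
  have hQD : Q ≤ D := by
    intro x hx
    have h1 : x ∈ (D : Set G) := by rw [hD]; exact ⟨1, P.one_mem, x, hx, one_mul x⟩
    exact h1
  haveI := Fact.mk hp
  haveI := Fact.mk hq
  obtain ⟨i, hi⟩ := IsPGroup.iff_card.1 hP
  obtain ⟨j, hj⟩ := IsPGroup.iff_card.1 hQ
  have hcop : (Nat.card P).Coprime (Nat.card Q) := by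
    rw [hi, hj]; exact Nat.Coprime.pow i j ((Nat.coprime_primes hp hq).2 hpq)
  have hcard := card_of_coe_eq_mul hD hcop
  have hℓV : ℓ ∣ Nat.card (N₀.map D.subtype : Subgroup G) := dvd_card_of_pgroup_ne_bot hℓ hVℓ hV0
  have hℓD : ℓ ∣ Nat.card P * Nat.card Q := by
    rw [← hcard]; exact hℓV.trans (Subgroup.card_dvd_of_le hVD)
  have hℓpq : ℓ = p ∨ ℓ = q := by
    rcases (Nat.Prime.dvd_mul hℓ).1 hℓD with h1 | h1
    · left; rw [hi] at h1
      exact (Nat.prime_dvd_prime_iff_eq hℓ hp).1 (hℓ.dvd_of_dvd_pow h1)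
    · right; rw [hj] at h1
      exact (Nat.prime_dvd_prime_iff_eq hℓ hq).1 (hℓ.dvd_of_dvd_pow h1)
  refine ⟨N₀.map D.subtype, hV0, hDV, ?_⟩
  rcases hℓpq with rfl | rfl
  · left
    refine ⟨?_, hVℓ⟩
    intro v hv
    have h1 : v ∈ (D : Set G) := hVD hv
    rw [hD] at h1
    obtain ⟨x, hx, y, hy, e0⟩ := Set.mem_mul.1 h1
    subst e0
    have hPV : IsPGroup ℓ (P ⊔ N₀.map D.subtype : Subgroup G) :=
      IsPGroup.to_sup_of_normal_right' hP hVℓ (hPD.trans hDV)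
    have hy' : y ∈ P ⊔ N₀.map D.subtype := by
      have e : y = x⁻¹ * (x * y) := by group
      rw [e]
      exact Subgroup.mul_mem _ (Subgroup.inv_mem _ (Subgroup.mem_sup_left hx))
        (Subgroup.mem_sup_right hv)
    rw [eq_one_of_mem_pgroups hℓ hq hpq hPV hQ hy' hy, mul_one]
    exact hx
  · right
    refine ⟨?_, hVℓ⟩
    intro v hv
    have h1 : v ∈ (D : Set G) := hVD hv
    rw [hD] at h1
    obtain ⟨x, hx, y, hy, e0⟩ := Set.mem_mul.1 h1
    subst e0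
    have hQV : IsPGroup ℓ (Q ⊔ N₀.map D.subtype : Subgroup G) :=
      IsPGroup.to_sup_of_normal_right' hQ hVℓ (hQD.trans hDV)
    have hx' : x ∈ Q ⊔ N₀.map D.subtype := by
      have e : x = (x * y) * y⁻¹ := by group
      rw [e]
      exact Subgroup.mul_mem _ (Subgroup.mem_sup_right hv)
        (Subgroup.inv_mem _ (Subgroup.mem_sup_left hy))
    rw [eq_one_of_mem_pgroups hp hℓ hpq hP hQV hx hx', one_mul]
    exact hy

theorem MinCex.gen_lemma (h : MinCex A B) {p q : ℕ} (hp : p.Prime) (hq : q.Prime)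
    {A₁ B₁ : Subgroup G} (hA₁ : A₁ ≤ A) (hA₁n : A ≤ Subgroup.normalizer (A₁ : Set G))
    (hA₁p : IsPGroup p A₁) (hA₁0 : A₁ ≠ ⊥)
    (hB₁ : B₁ ≤ B) (hB₁n : B ≤ Subgroup.normalizer (B₁ : Set G))
    (hB₁q : IsPGroup q B₁) (hB₁0 : B₁ ≠ ⊥) (hT : A₁ ⊔ B₁ ≠ ⊤) :
    ∃ V : Subgroup G, V ≠ ⊥ ∧ A₁ ≤ Subgroup.normalizer (V : Set G) ∧
      B₁ ≤ Subgroup.normalizer (V : Set G) ∧
      ((V ≤ A ∧ IsPGroup p V) ∨ (V ≤ B ∧ IsPGroup q V)) := by
  have hT0 : A₁ ⊔ B₁ ≠ ⊥ := fun hh => hA₁0 (eq_bot_iff.2 (hh ▸ le_sup_left))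
  have hN : Subgroup.normalizer ((A₁ ⊔ B₁ : Subgroup G) : Set G) ≠ ⊤ := by
    intro hh
    rcases h.eq_bot_or_top_of_normalizer hh with h1 | h1
    · exact hT0 h1
    · exact hT h1
  have hfac : Fac A B (Subgroup.normalizer ((A₁ ⊔ B₁ : Subgroup G) : Set G)) := by
    intro s hs
    obtain ⟨a, ha, b, hb, e⟩ := Cfsg.Agent.S0562.result A B A₁ B₁ h.cfg.fact hA₁
      ((Subgroup.normal_subgroupOf_iff_le_normalizer hA₁).2 hA₁n) hB₁
      ((Subgroup.normal_subgroupOf_iff_le_normalizer hB₁).2 hB₁n) s hs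
    exact ⟨a, ⟨ha.2, ha.1⟩, b, ⟨hb.2, hb.1⟩, e⟩
  have hpq : p ≠ q := by
    rintro rfl
    have h1 : p ∣ Nat.card A :=
      (dvd_card_of_pgroup_ne_bot hp hA₁p hA₁0).trans (Subgroup.card_dvd_of_le hA₁)
    have h2 : p ∣ Nat.card B :=
      (dvd_card_of_pgroup_ne_bot hp hB₁q hB₁0).trans (Subgroup.card_dvd_of_le hB₁)
    exact hp.one_lt.ne' (Nat.eq_one_of_dvd_coprimes h.cfg.cop h1 h2)
  obtain ⟨D, hD, hDN, hDs⟩ := h.exists_prod_sylG hN hfac hp hq
  have hTN : A₁ ⊔ B₁ ≤ Subgroup.normalizer ((A₁ ⊔ B₁ : Subgroup G) : Set G) :=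
    Subgroup.le_normalizer
  have hA₁P : A₁ ≤ sylG (A ⊓ Subgroup.normalizer ((A₁ ⊔ B₁ : Subgroup G) : Set G)) p :=
    le_sylG (nil_of_le h.cfg.nilA inf_le_left) hp (le_inf hA₁ (le_sup_left.trans hTN)) hA₁p
  have hB₁Q : B₁ ≤ sylG (B ⊓ Subgroup.normalizer ((A₁ ⊔ B₁ : Subgroup G) : Set G)) q :=
    le_sylG (nil_of_le h.cfg.nilB inf_le_left) hq (le_inf hB₁ (le_sup_right.trans hTN)) hB₁q
  have hPD : sylG (A ⊓ Subgroup.normalizer ((A₁ ⊔ B₁ : Subgroup G) : Set G)) p ≤ D := by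
    intro x hx
    have h1 : x ∈ (D : Set G) := by rw [hD]; exact ⟨x, hx, 1, Subgroup.one_mem _, mul_one x⟩
    exact h1
  have hQD : sylG (B ⊓ Subgroup.normalizer ((A₁ ⊔ B₁ : Subgroup G) : Set G)) q ≤ D := by
    intro x hx
    have h1 : x ∈ (D : Set G) := by rw [hD]; exact ⟨1, Subgroup.one_mem _, x, hx, one_mul x⟩
    exact h1
  have hD0 : D ≠ ⊥ := fun hh => hA₁0 (eq_bot_iff.2 (hh ▸ hA₁P.trans hPD))
  obtain ⟨V, hV0, hDV, hV⟩ := exists_normal_pq hD hDs hD0 hp hq hpq (sylG_isPGroup _ _)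
    (sylG_isPGroup _ _)
  refine ⟨V, hV0, (hA₁P.trans hPD).trans hDV, (hB₁Q.trans hQD).trans hDV, ?_⟩
  rcases hV with ⟨h1, h2⟩ | ⟨h1, h2⟩
  · left; exact ⟨h1.trans ((sylG_le _ _).trans inf_le_left), h2⟩
  · right; exact ⟨h1.trans ((sylG_le _ _).trans inf_le_left), h2⟩

theorem sylG_le_normalizer_of_ne {A : Subgroup G} (hA : Group.IsNilpotent A) {r q : ℕ}
    (hr : r.Prime) (hq : q.Prime) (hne : q ≠ r) {V : Subgroup G} (hVA : V ≤ A)
    (hV : IsPGroup r V) : sylG A q ≤ Subgroup.normalizer (V : Set G) := by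
  have hVs : V ≤ sylG A r := le_sylG hA hr hVA hV
  intro x hx
  apply mem_normalizer_of_conj_mem
  intro v hv
  have h1 := commute_sylG hA hq hr hne hx (hVs hv)
  have e : x * v * x⁻¹ = v := by rw [h1.eq, mul_inv_cancel_right]
  rw [e]; exact hv

/-- an `r`-subgroup of `A` normalized by the Sylow `r`-subgroup of `A` is normalized by `A` -/
theorem le_normalizer_of_sylG_le {A : Subgroup G} (hA : Group.IsNilpotent A) {r : ℕ}
    (hr : r.Prime) {V : Subgroup G} (hVA : V ≤ A) (hV : IsPGroup r V)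
    (hn : sylG A r ≤ Subgroup.normalizer (V : Set G)) :
    A ≤ Subgroup.normalizer (V : Set G) := by
  apply le_of_sylG_le
  intro q hq
  by_cases hqr : q = r
  · subst hqr; exact hn
  · exact sylG_le_normalizer_of_ne hA hr hq hqr hVA hV

theorem MinCex.gen0 (h : MinCex A B) {r s : ℕ} (hr : r.Prime) (hs : s.Prime)
    (hrA : r ∣ Nat.card A) (hsB : s ∣ Nat.card B) : sylG A r ⊔ sylG B s = ⊤ := by
  by_contra hT
  obtain ⟨V, hV0, hAV, hBV, hV⟩ := h.gen_lemma hr hs (sylG_le A r)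
    (le_normalizer_sylG h.cfg.nilA hr) (sylG_isPGroup A r) (sylG_ne_bot hr hrA) (sylG_le B s)
    (le_normalizer_sylG h.cfg.nilB hs) (sylG_isPGroup B s) (sylG_ne_bot hs hsB) hT
  rcases hV with ⟨hVA, hVr⟩ | ⟨hVB, hVs⟩
  · have hAn : A ≤ Subgroup.normalizer (V : Set G) :=
      le_normalizer_of_sylG_le h.cfg.nilA hr hVA hVr hAV
    have h0 := h.normalizer_eq_top hAn (sylG_ne_bot hs hsB) (le_normalizer_sylG h.cfg.nilB hs)
      hBV
    rcases h.eq_bot_or_top_of_normalizer h0 with h1 | h1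
    · exact hV0 h1
    · exact h.A_ne_top (top_le_iff.1 (h1 ▸ hVA))
  · have hBn : B ≤ Subgroup.normalizer (V : Set G) :=
      le_normalizer_of_sylG_le h.cfg.nilB hs hVB hVs hBV
    have h0 := h.symm.normalizer_eq_top hBn (sylG_ne_bot hr hrA)
      (le_normalizer_sylG h.cfg.nilA hr) hAV
    rcases h.eq_bot_or_top_of_normalizer h0 with h1 | h1
    · exact hV0 h1
    · exact h.B_ne_top (top_le_iff.1 (h1 ▸ hVB))

theorem MinCex.gen1 (h : MinCex A B) {r q : ℕ} (hr : r.Prime) (hq : q.Prime)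
    (hrA : r ∣ Nat.card A) {B₁ : Subgroup G} (hB₁ : B₁ ≤ B)
    (hB₁n : B ≤ Subgroup.normalizer (B₁ : Set G)) (hB₁q : IsPGroup q B₁) (hB₁0 : B₁ ≠ ⊥) :
    sylG A r ⊔ B₁ = ⊤ := by
  by_contra hT
  obtain ⟨V, hV0, hAV, hBV, hV⟩ := h.gen_lemma hr hq (sylG_le A r)
    (le_normalizer_sylG h.cfg.nilA hr) (sylG_isPGroup A r) (sylG_ne_bot hr hrA) hB₁ hB₁n hB₁q
    hB₁0 hT
  rcases hV with ⟨hVA, hVr⟩ | ⟨hVB, hVq⟩
  · have hAn := le_normalizer_of_sylG_le h.cfg.nilA hr hVA hVr hAV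
    have h0 := h.normalizer_eq_top hAn hB₁0 hB₁n hBV
    rcases h.eq_bot_or_top_of_normalizer h0 with h1 | h1
    · exact hV0 h1
    · exact h.A_ne_top (top_le_iff.1 (h1 ▸ hVA))
  · obtain ⟨s, hs, hsq, hsB⟩ := h.symm.exists_prime_ne q
    have h1 : sylG B s ≤ Subgroup.normalizer (V : Set G) :=
      sylG_le_normalizer_of_ne h.cfg.nilB hq hs hsq hVB hVq
    have h2 : sylG A r ⊔ sylG B s ≤ Subgroup.normalizer (V : Set G) := sup_le hAV h1
    rw [h.gen0 hr hs hrA hsB, top_le_iff] at h2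
    rcases h.eq_bot_or_top_of_normalizer h2 with h3 | h3
    · exact hV0 h3
    · exact h.B_ne_top (top_le_iff.1 (h3 ▸ hVB))

theorem MinCex.gen2 (h : MinCex A B) {p q : ℕ} (hp : p.Prime) (hq : q.Prime)
    {A₁ B₁ : Subgroup G} (hA₁ : A₁ ≤ A) (hA₁n : A ≤ Subgroup.normalizer (A₁ : Set G))
    (hA₁p : IsPGroup p A₁) (hA₁0 : A₁ ≠ ⊥)
    (hB₁ : B₁ ≤ B) (hB₁n : B ≤ Subgroup.normalizer (B₁ : Set G))
    (hB₁q : IsPGroup q B₁) (hB₁0 : B₁ ≠ ⊥) : A₁ ⊔ B₁ = ⊤ := by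
  by_contra hT
  obtain ⟨V, hV0, hAV, hBV, hV⟩ := h.gen_lemma hp hq hA₁ hA₁n hA₁p hA₁0 hB₁ hB₁n hB₁q hB₁0 hT
  rcases hV with ⟨hVA, hVp⟩ | ⟨hVB, hVq⟩
  · obtain ⟨r, hr, hrp, hrA⟩ := h.exists_prime_ne p
    have h1 : sylG A r ≤ Subgroup.normalizer (V : Set G) :=
      sylG_le_normalizer_of_ne h.cfg.nilA hp hr hrp hVA hVp
    have h2 : sylG A r ⊔ B₁ ≤ Subgroup.normalizer (V : Set G) := sup_le h1 hBV
    rw [h.gen1 hr hq hrA hB₁ hB₁n hB₁q hB₁0, top_le_iff] at h2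
    rcases h.eq_bot_or_top_of_normalizer h2 with h3 | h3
    · exact hV0 h3
    · exact h.A_ne_top (top_le_iff.1 (h3 ▸ hVA))
  · obtain ⟨s, hs, hsq, hsB⟩ := h.symm.exists_prime_ne q
    have h1 : sylG B s ≤ Subgroup.normalizer (V : Set G) :=
      sylG_le_normalizer_of_ne h.cfg.nilB hq hs hsq hVB hVq
    have h2 : sylG B s ⊔ A₁ ≤ Subgroup.normalizer (V : Set G) := sup_le h1 hAV
    rw [h.symm.gen1 hs hp hsB hA₁ hA₁n hA₁p hA₁0, top_le_iff] at h2
    rcases h.eq_bot_or_top_of_normalizer h2 with h3 | h3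
    · exact hV0 h3
    · exact h.B_ne_top (top_le_iff.1 (h3 ▸ hVB))

/-- nontrivial central element of `A` -/
def Cen (A : Subgroup G) (z : G) : Prop := z ∈ A ∧ z ≠ 1 ∧ ∀ a ∈ A, Commute a z

theorem MinCex.exists_cen_sylG (h : MinCex A B) {r : ℕ} (hr : r.Prime) (hrA : r ∣ Nat.card A) :
    ∃ z, Cen A z ∧ z ∈ sylG A r := by
  obtain ⟨z, hz, hz1, hzc⟩ := exists_central_sylG h.cfg.nilA hr hrA
  exact ⟨z, ⟨sylG_le A r hz, hz1, hzc⟩, hz⟩

theorem MinCex.exists_cen (h : MinCex A B) : ∃ z, Cen A z := by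
  obtain ⟨r, hr, -, hrA⟩ := h.exists_prime_ne 0
  obtain ⟨z, hz, -⟩ := h.exists_cen_sylG hr hrA
  exact ⟨z, hz⟩

theorem Cen.exists_prime {z : G} (hz : Cen A z) :
    ∃ p k, p.Prime ∧ Cen A (z ^ k) ∧ orderOf (z ^ k) = p := by
  have h1 : orderOf z ≠ 1 := fun hh => hz.2.1 (orderOf_eq_one_iff.1 hh)
  obtain ⟨p, hp, hpd⟩ := Nat.exists_prime_and_dvd h1
  have ho : orderOf (z ^ (orderOf z / p)) = p :=
    orderOf_pow_orderOf_div (orderOf_pos z).ne' hpd
  refine ⟨p, orderOf z / p, hp, ⟨A.pow_mem hz.1 _, ?_, fun a ha => (hz.2.2 a ha).pow_right _⟩,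
    ho⟩
  intro hh
  rw [hh, orderOf_one] at ho
  exact hp.one_lt.ne ho

theorem Cen.zpowers_facts {z : G} (hz : Cen A z) {p : ℕ} (ho : orderOf z = p) :
    Subgroup.zpowers z ≤ A ∧ A ≤ Subgroup.normalizer (Subgroup.zpowers z : Set G) ∧
      IsPGroup p (Subgroup.zpowers z) ∧ Subgroup.zpowers z ≠ ⊥ := by
  refine ⟨Subgroup.zpowers_le.2 hz.1, ?_,
    IsPGroup.of_card (n := 1) (by rw [Nat.card_zpowers, ho, pow_one]), ?_⟩
  · apply le_normalizer_of_conj_mem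
    intro a ha x hx
    obtain ⟨k, rfl⟩ := Subgroup.mem_zpowers_iff.1 hx
    have h1 : Commute a (z ^ k) := (hz.2.2 a ha).zpow_right k
    rw [h1.eq, mul_inv_cancel_right]; exact hx
  · rw [Ne, Subgroup.zpowers_eq_bot]; exact hz.2.1

/-- nontrivial central elements of `A` and `B` generate `G` -/
theorem MinCex.gen_cen (h : MinCex A B) {z z' : G} (hz : Cen A z) (hz' : Cen B z')
    {S : Subgroup G} (hzS : z ∈ S) (hz'S : z' ∈ S) : S = ⊤ := by
  obtain ⟨p, k, hp, hz₁, ho⟩ := hz.exists_prime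
  obtain ⟨q, l, hq, hz₁', ho'⟩ := hz'.exists_prime
  obtain ⟨a1, a2, a3, a4⟩ := hz₁.zpowers_facts ho
  obtain ⟨b1, b2, b3, b4⟩ := hz₁'.zpowers_facts ho'
  have h1 := h.gen2 hp hq a1 a2 a3 a4 b1 b2 b3 b4
  rw [eq_top_iff, ← h1]
  exact sup_le (Subgroup.zpowers_le.2 (S.pow_mem hzS _)) (Subgroup.zpowers_le.2 (S.pow_mem hz'S _))

/-- the centralizer of a nontrivial central element of `A` is `A` -/
theorem MinCex.mem_of_commute_cen (h : MinCex A B) {z : G} (hz : Cen A z) {g : G}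
    (hg : Commute g z) : g ∈ A := by
  obtain ⟨z', hz'⟩ := h.symm.exists_cen
  obtain ⟨a, ha, b, hb, rfl⟩ := h.cfg.fact g
  have hbz : Commute b z := by
    have h1 : Commute a z := hz.2.2 a ha
    have e : b = a⁻¹ * (a * b) := by group
    rw [e]; exact h1.inv_left.mul_left hg
  have hbz' : Commute b z' := hz'.2.2 b hb
  have hS : Subgroup.centralizer ({b} : Set G) = ⊤ :=
    h.gen_cen hz hz'
      (by
        rw [Subgroup.mem_centralizer_iff]; intro y hy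
        rw [Set.mem_singleton_iff] at hy; subst hy; exact hbz.eq)
      (by
        rw [Subgroup.mem_centralizer_iff]; intro y hy
        rw [Set.mem_singleton_iff] at hy; subst hy; exact hbz'.eq)
  have hb1 : b = 1 := h.center_trivial (fun x => by
    have h2 : x ∈ Subgroup.centralizer ({b} : Set G) := by rw [hS]; trivial
    exact (Subgroup.mem_centralizer_iff.1 h2 b rfl).symm)
  rw [hb1, mul_one]; exact ha

/-- conjugates of nontrivial central elements of `A` and `B` generate `G` -/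
theorem MinCex.gen_conj_cen (h : MinCex A B) {z z' : G} (hz : Cen A z) (hz' : Cen B z')
    (g k : G) {S : Subgroup G} (h1 : g * z * g⁻¹ ∈ S) (h2 : k * z' * k⁻¹ ∈ S) : S = ⊤ := by
  obtain ⟨a, ha, b, hb, e⟩ := h.cfg.fact (g⁻¹ * k)
  have hk : k = g * a * b := by rw [mul_assoc, ← e]; group
  have hmem : ∀ x, x ∈ S.comap (MulAut.conj (g * a)).toMonoidHom ↔
      (g * a) * x * (g * a)⁻¹ ∈ S := fun x => by
    rw [Subgroup.mem_comap]; rfl
  have hzS' : z ∈ S.comap (MulAut.conj (g * a)).toMonoidHom := by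
    rw [hmem]
    have e1 : g * a * z * (g * a)⁻¹ = g * z * g⁻¹ := by
      have h3 := (hz.2.2 a ha).eq
      rw [mul_assoc g a z, h3]; group
    rw [e1]; exact h1
  have hz'S' : z' ∈ S.comap (MulAut.conj (g * a)).toMonoidHom := by
    rw [hmem]
    have e1 : g * a * z' * (g * a)⁻¹ = k * z' * k⁻¹ := by
      have h3 := (hz'.2.2 b hb).eq
      have e2 : b * z' * b⁻¹ = z' := by rw [h3, mul_inv_cancel_right]
      rw [hk]
      calc g * a * z' * (g * a)⁻¹ = g * a * (b * z' * b⁻¹) * (g * a)⁻¹ := by rw [e2]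
        _ = g * a * b * z' * (g * a * b)⁻¹ := by group
    rw [e1]; exact h2
  have hT := h.gen_cen hz hz' hzS' hz'S'
  rw [eq_top_iff]; intro x _
  have h4 : (g * a)⁻¹ * x * (g * a) ∈ S.comap (MulAut.conj (g * a)).toMonoidHom := by
    rw [hT]; trivial
  rw [hmem] at h4
  have e3 : g * a * ((g * a)⁻¹ * x * (g * a)) * (g * a)⁻¹ = x := by group
  rwa [e3] at h4

/-- if a conjugate of a nontrivial central element of `A` lies in `A`, the conjugating
element normalizes `A` -/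
theorem MinCex.mem_normalizer_of_conj_cen (h : MinCex A B) {z : G} (hz : Cen A z) {g : G}
    (hg : g * z * g⁻¹ ∈ A) : g ∈ Subgroup.normalizer (A : Set G) := by
  apply mem_normalizer_of_conj_mem
  have key : A ≤ A.comap (MulAut.conj g).toMonoidHom := by
    apply le_of_sylG_le
    intro q hq x hx
    rw [Subgroup.mem_comap]
    show g * x * g⁻¹ ∈ A
    obtain ⟨r, hr, hrq, hrA⟩ := h.exists_prime_ne q
    obtain ⟨z₁, hz₁, hz₁r⟩ := h.exists_cen_sylG hr hrA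
    have h1 : Commute (g⁻¹ * z₁ * g) z := by
      have h2 : Commute (g * z * g⁻¹) z₁ := hz₁.2.2 _ hg
      have h3 := h2.eq
      show g⁻¹ * z₁ * g * z = z * (g⁻¹ * z₁ * g)
      have e1 : z * (g⁻¹ * z₁ * g) = g⁻¹ * (g * z * g⁻¹ * z₁) * g := by group
      rw [e1, h3]; group
    have h4 : g⁻¹ * z₁ * g ∈ A := h.mem_of_commute_cen hz h1
    have h5 : g⁻¹ * z₁ * g ∈ sylG A r := by
      obtain ⟨k, hk⟩ := orderOf_of_mem_pgroup hr (sylG_isPGroup A r) hz₁r
      apply mem_sylG_of_orderOf h.cfg.nilA hr h4 (k := k)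
      rw [← hk]
      exact orderOf_conj_eq' g z₁
    have h6 : Commute x (g⁻¹ * z₁ * g) := commute_sylG h.cfg.nilA hq hr (Ne.symm hrq) hx h5
    apply h.mem_of_commute_cen hz₁
    show g * x * g⁻¹ * z₁ = z₁ * (g * x * g⁻¹)
    have h7 := h6.eq
    have e1 : g * x * g⁻¹ * z₁ = g * (x * (g⁻¹ * z₁ * g)) * g⁻¹ := by group
    rw [e1, h7]; group
  intro a ha
  have h8 := key ha
  rw [Subgroup.mem_comap] at h8
  exact h8

theorem MinCex.mem_normalizer_of_conj_cen' (h : MinCex A B) {z : G} (hz : Cen A z) {x : G}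
    (hx : x⁻¹ * z * x ∈ A) : x ∈ Subgroup.normalizer (A : Set G) := by
  have h1 : x⁻¹ ∈ Subgroup.normalizer (A : Set G) :=
    h.mem_normalizer_of_conj_cen hz (by rwa [inv_inv])
  simpa using Subgroup.inv_mem _ h1

end Cfsg.Agent.Lib.Helper57.Wie
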